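/-
The kernel checks for the automorphisms of the explicit model of type M(22).
-/
import Mathlib
import Cfsg.Agent.Lib.Fischer.M22.Rows.Out.Data

set_option autoImplicit false
set_option maxRecDepth 100000

namespace Cfsg.Agent.Lib.Fischer.M22.Rows.Out

open Cfsg Cfsg.Agent.Lib.Compute.ToddCoxeterCore Cfsg.Agent.Lib.Compute.TCChain
open Cfsg.Agent.Lib.Fischer.M22.Explicit Cfsg.Agent.Lib.Fischer.M22.Rows

/-- Equality of booleans. -/
def bEq (a b : Bool) : Bool := Bool.rec (motive := fun _ => Bool) (Bool.rec (motive := fun _ => Bool) true false b) b a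

theorem bEq_true {a b : Bool} (h : bEq a b = true) : a = b := by
  cases a <;> cases b <;> first | rfl | cases h

theorem chk_cm : CMt.all (fun e => blt e.1 (nat_lit 3510) && allFrom (fun x => bEq (tb e.2 x) (fl e.1 x)) (nat_lit 3510) (nat_lit 0)) = true := by
  decide +kernel

theorem piv_chk : allFrom (fun i => blt (piv i) (nat_lit 3510) && Nat.beq (piv (piv i)) i) (nat_lit 3510) (nat_lit 0) = true := by
  decide +kernel

theorem compat_chk : allFrom (fun k => allFrom (fun x => Nat.beq (piv (rdT k x)) (tv (piv (lab k)) (piv x))) (nat_lit 3510) (nat_lit 0))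
    (nat_lit 9) (nat_lit 0) = true := by
  decide +kernel

theorem chO_ok : chOK CMm DMm (fun _ => true) ALL piv chO [] = true := by decide +kernel

theorem chO_letters : (List.range 9).all (fun k => (chPts chO []).elem (lab k)) = true := by decide +kernel

/-- The label map of the second automorphism. -/
noncomputable def piA (c : ℕ) : ℕ := piv (tv (nat_lit 2) c)

/-- The label map of the third automorphism. -/
noncomputable def piB (c : ℕ) : ℕ := piv (tv (nat_lit 2) (tv (nat_lit 3) c))

theorem MS_chk : allFrom (fun c => bEq (tb MS c) (Nat.beq (piv c) c)) (nat_lit 3510) (nat_lit 0) = true := by decide +kernel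

theorem MA_chk : allFrom (fun c => bEq (tb MA c) (Nat.beq (piA c) c)) (nat_lit 3510) (nat_lit 0) = true := by decide +kernel

theorem MB_chk : allFrom (fun c => bEq (tb MB c) (Nat.beq (piB c) c)) (nat_lit 3510) (nat_lit 0) = true := by decide +kernel

/-- Atoms in a mask. -/
noncomputable def RaM (M a : ℕ) : Bool := blt (nat_lit 15) a && tb M (Nat.sub a (nat_lit 16))

theorem chS1_ok : chOK CMm DMm (RaM MS) MS (fun c => c) chS1 [] = true := by decide +kernel

theorem chS2_ok : chOK CMm DMm (fun _ => false) ALL piv chS2 (chPts chS1 []) = true := by decide +kernel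

theorem chS2_letters : (List.range 9).all (fun k => (chPts chS2 (chPts chS1 [])).elem (lab k)) = true := by decide +kernel

theorem chA1_ok : chOK CMm DMm (RaM MA) MA (fun c => c) chA1 [2] = true := by decide +kernel

theorem chA2_ok : chOK CMm DMm (fun a => Nat.beq a (nat_lit 18)) ALL piv chA2 (chPts chA1 [2]) = true := by decide +kernel

theorem chA2_letters : (List.range 9).all (fun k => (chPts chA2 (chPts chA1 [2])).elem (lab k)) = true := by decide +kernel

theorem chB1_ok : chOK CMm DMm (RaM MB) MB (fun c => c) chB1 [] = true := by decide +kernel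

theorem chB2_ok : chOK CMm DMm (fun _ => false) ALL piB chB2 (chPts chB1 []) = true := by decide +kernel

theorem chB2_letters : (List.range 9).all (fun k => (chPts chB2 (chPts chB1 [])).elem (lab k)) = true := by decide +kernel

end Cfsg.Agent.Lib.Fischer.M22.Rows.Out
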