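/-
The outer automorphism of the explicit model of type M(22), given by a permutation of the labels of the transpositions,
and the structure of the automorphism group: every automorphism is inner, or inner times the given one.
-/
import Mathlib
import Cfsg.Agent.Lib.Fischer.M22.Rows.Out.Chk

set_option autoImplicit false
set_option maxRecDepth 100000

namespace Cfsg.Agent.Lib.Fischer.M22.Rows.Out

open Cfsg Cfsg.Agent.Lib.Compute.ToddCoxeterCore Cfsg.Agent.Lib.Compute.TCChain
open Cfsg.Agent.Lib.Compute.ToddCoxeterPresented hiding TT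
open Cfsg.Agent.Lib.Compute.TC
open Cfsg.Agent.Lib.Fischer.M22.Explicit Cfsg.Agent.Lib.Fischer.M22.Rows

/-! ### The commuting masks -/

theorem lk_spec : ∀ (l : List (ℕ × ℕ)), l.all (fun e => blt e.1 (nat_lit 3510) && allFrom (fun x => bEq (tb e.2 x) (fl e.1 x)) (nat_lit 3510) (nat_lit 0)) = true →
    ∀ p, l.any (fun e => Nat.beq e.1 p) = true → ∀ x, x < NN → tb (lkM l p) x = fl p x := by
  intro l
  induction l with
  | nil =>
    intro _ p h
    cases h
  | cons e r ih =>
    intro h p hp x hx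
    simp only [List.all_cons, Bool.and_eq_true] at h
    show tb (Bool.rec (motive := fun _ => ℕ) (lkM r p) e.2 (Nat.beq e.1 p)) x = _
    cases h1 : Nat.beq e.1 p with
    | true =>
      have h2 := beq_iff.1 h1
      simp only []
      rw [← h2]
      exact bEq_true (allFrom_spec h.1.2 x (Nat.zero_le _) (by show x < 0 + 3510; exact hx))
    | false =>
      simp only []
      apply ih h.2 p _ x hx
      simp only [List.any_cons, Bool.or_eq_true] at hp
      rcases hp with hp | hp
      · rw [hp] at h1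
        cases h1
      · exact hp

theorem hcm_all : ∀ p x, DMm p = true → p < NN → x < NN → tb (CMm p) x = fl p x := by
  intro p x hD _ hx
  exact lk_spec CMt chk_cm p hD x hx

/-! ### Automorphisms and transpositions -/

theorem hD_of (ψ : MulAut G0) : ∀ x, x ∈ D0 ↔ ψ x ∈ D0 := by
  have h := unique_class_of_iso (D := {a | ψ a ∈ D0}) ψ (fun _ => Iff.rfl) class0
  intro x
  constructor
  · intro hx
    rw [h] at hx
    exact hx
  · intro hx
    rw [h]
    exact hx

theorem tn_mem_D0 {u : ℕ} (hu : u < NN) : tn u ∈ D0 := by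
  rw [show tn u = t ⟨u, hu⟩ from tn_val ⟨u, hu⟩]
  exact t_mem _

theorem exists_label (ψ : MulAut G0) {u : ℕ} (hu : u < NN) : ∃ c, c < NN ∧ ψ (tn u) = tn c := by
  obtain ⟨p, hp⟩ := mem_D0.1 ((hD_of ψ _).1 (tn_mem_D0 hu))
  refine ⟨p, p.2, ?_⟩
  rw [hp]
  exact (tn_val p).symm

/-! ### The permutation of the labels -/

theorem piv_lt {i : ℕ} (hi : i < NN) : piv i < NN := by
  have h := allFrom_spec piv_chk i (Nat.zero_le _) (by show i < 0 + 3510; exact hi)
  rw [Bool.and_eq_true] at h
  exact blt_iff.1 h.1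

theorem piv_piv {i : ℕ} (hi : i < NN) : piv (piv i) = i := by
  have h := allFrom_spec piv_chk i (Nat.zero_le _) (by show i < 0 + 3510; exact hi)
  rw [Bool.and_eq_true] at h
  exact beq_iff.1 h.2

/-- The permutation. -/
noncomputable def P : Equiv.Perm (Fin NN) where
  toFun i := ⟨piv i, piv_lt i.2⟩
  invFun i := ⟨piv i, piv_lt i.2⟩
  left_inv i := Fin.ext (piv_piv i.2)
  right_inv i := Fin.ext (piv_piv i.2)

theorem P_val (i : Fin NN) : ((P i : Fin NN) : ℕ) = piv i := rfl

theorem P_P (i : Fin NN) : P (P i) = i := Fin.ext (piv_piv i.2)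

theorem P_mul_P : P * P = 1 := by
  ext i
  show ((P (P i) : Fin NN) : ℕ) = i
  rw [P_P]

theorem P_inv : P⁻¹ = P := inv_eq_of_mul_eq_one_left P_mul_P

theorem compat {k x : ℕ} (hk : k < 9) (hx : x < NN) : piv (rdT k x) = tv (piv (lab k)) (piv x) := by
  have h := allFrom_spec compat_chk k (Nat.zero_le _) (by show k < 0 + 9; omega)
  exact beq_iff.1 (allFrom_spec h x (Nat.zero_le _) (by show x < 0 + 3510; exact hx))

/-- The label of a letter under the permutation. -/
noncomputable def tP (k : ℕ) : Fin NN := ⟨piv (lab k), piv_lt (lab_lt_of k)⟩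
where
  lab_lt_of (k : ℕ) : lab k < NN := by
    by_cases hk : k < 16
    · exact lab_lt k hk
    · have : lab k = 0 := by
        unfold lab
        exact List.getD_eq_default _ _ (by
          have : labL.length = 16 := by decide +kernel
          omega)
      rw [this]
      show 0 < 3510
      norm_num

theorem conj_letter {k : ℕ} (hk : k < 9) : P * φ (T k) * P = φ (t (tP k)) := by
  ext i
  show ((P (φ (T k) (P i)) : Fin NN) : ℕ) = ((φ (t (tP k)) i : Fin NN) : ℕ)
  rw [P_val, T_val (by omega) (P i), tv_spec (tP k) i, P_val, compat hk (piv_lt i.2), piv_piv i.2]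
  rfl

theorem conj_range (g : G0) : ∃ g', P * φ g * P = φ g' := by
  obtain ⟨u, rfl⟩ := exists_word g
  induction u with
  | nil => exact ⟨1, by simp [P_mul_P]⟩
  | cons x r ih =>
    obtain ⟨g', hg'⟩ := ih
    have hL : ∃ l, P * φ (L x) * P = φ l := by
      by_cases hx : x < 9
      · rw [← T_letter hx]
        exact ⟨_, conj_letter hx⟩
      · have h1 : L x = 1 := elX_ge _ _ (by
          have : Fi22a.D.lets.length = 9 := by decide +kernel
          omega)
        exact ⟨1, by simp [h1, P_mul_P]⟩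
    obtain ⟨l, hl⟩ := hL
    refine ⟨g' * l, ?_⟩
    rw [wordEl_cons, map_mul, map_mul, ← hg', ← hl]
    calc P * (φ (wordEl L r) * φ (L x)) * P = P * φ (wordEl L r) * 1 * φ (L x) * P := by group
      _ = P * φ (wordEl L r) * (P * P) * φ (L x) * P := by rw [P_mul_P]
      _ = _ := by group

/-- The automorphism as a function. -/
noncomputable def sF (g : G0) : G0 := (conj_range g).choose

theorem sF_spec (g : G0) : φ (sF g) = P * φ g * P := (conj_range g).choose_spec.symm

/-- The automorphism. -/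
noncomputable def s0 : MulAut G0 where
  toFun := sF
  invFun := sF
  left_inv g := by
    apply φ_inj
    rw [sF_spec, sF_spec]
    calc P * (P * φ g * P) * P = (P * P) * φ g * (P * P) := by group
      _ = φ g := by rw [P_mul_P]; simp
  right_inv g := by
    apply φ_inj
    rw [sF_spec, sF_spec]
    calc P * (P * φ g * P) * P = (P * P) * φ g * (P * P) := by group
      _ = φ g := by rw [P_mul_P]; simp
  map_mul' x y := by
    apply φ_inj
    rw [sF_spec, map_mul, map_mul, sF_spec, sF_spec]
    calc P * (φ x * φ y) * P = P * φ x * 1 * φ y * P := by group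
      _ = P * φ x * (P * P) * φ y * P := by rw [P_mul_P]
      _ = _ := by group

theorem s0_spec (g : G0) : φ (s0 g) = P * φ g * P := sF_spec g

theorem s0_s0 (g : G0) : s0 (s0 g) = g := s0.left_inv g

theorem s0_sq : s0 * s0 = 1 := by
  ext g
  exact s0_s0 g

theorem s0_inv : s0⁻¹ = s0 := inv_eq_of_mul_eq_one_left s0_sq

theorem s0_T {k : ℕ} (hk : k < 9) : s0 (T k) = t (tP k) := by
  apply φ_inj
  rw [s0_spec, conj_letter hk]

/-- The value on a transposition. -/
theorem s0_t (u : Fin NN) : s0 (t u) = t (P u) := by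
  have h0 : T 0 = a0 := T_letter (by norm_num)
  have h1 : s0 a0 = t (P pt0) := by
    rw [← h0, s0_T (by norm_num)]
    congr 1
  have hw := wt_spec u
  have h2 : t u = wt u * a0 * (wt u)⁻¹ := rfl
  rw [h2, map_mul, map_mul, map_inv, h1, t_conj]
  congr 1
  rw [s0_spec]
  show P (φ (wt u) (P (P pt0))) = P u
  rw [P_P, hw]

theorem s0_tn {u : ℕ} (hu : u < NN) : s0 (tn u) = tn (piv u) := by
  have h1 : tn u = t ⟨u, hu⟩ := tn_val ⟨u, hu⟩
  rw [h1, s0_t]
  exact (tn_val (P ⟨u, hu⟩)).symm

/-! ### The group generated by the inner automorphisms and this one -/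

theorem s0_conj (g : G0) : s0 * MulAut.conj g = MulAut.conj (s0 g) * s0 := by
  ext x
  show s0 (g * x * g⁻¹) = s0 g * s0 x * (s0 g)⁻¹
  rw [map_mul, map_mul, map_inv]

/-- The inner automorphisms and their products with the given one. -/
noncomputable def AA : Subgroup (MulAut G0) where
  carrier := {ρ | ∃ g, ρ = MulAut.conj g ∨ ρ = MulAut.conj g * s0}
  mul_mem' := by
    rintro a b ⟨g, rfl | rfl⟩ ⟨h, rfl | rfl⟩
    · exact ⟨g * h, Or.inl (map_mul _ _ _).symm⟩
    · exact ⟨g * h, Or.inr (by rw [map_mul, mul_assoc])⟩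
    · exact ⟨g * s0 h, Or.inr (by rw [map_mul, mul_assoc, s0_conj, mul_assoc])⟩
    · refine ⟨g * s0 h, Or.inl ?_⟩
      rw [map_mul]
      calc MulAut.conj g * s0 * (MulAut.conj h * s0) = MulAut.conj g * (s0 * MulAut.conj h) * s0 := by group
        _ = MulAut.conj g * (MulAut.conj (s0 h) * s0) * s0 := by rw [s0_conj]
        _ = MulAut.conj g * MulAut.conj (s0 h) * (s0 * s0) := by group
        _ = _ := by rw [s0_sq, mul_one]
  one_mem' := ⟨1, Or.inl (map_one _).symm⟩
  inv_mem' := by
    rintro a ⟨g, rfl | rfl⟩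
    · exact ⟨g⁻¹, Or.inl (map_inv _ _).symm⟩
    · refine ⟨s0 g⁻¹, Or.inr ?_⟩
      have h1 : (MulAut.conj g * s0)⁻¹ = s0⁻¹ * (MulAut.conj g)⁻¹ := mul_inv_rev _ _
      rw [h1, s0_inv, ← map_inv, s0_conj]

theorem conj_mem_AA (g : G0) : MulAut.conj g ∈ AA := ⟨g, Or.inl rfl⟩

theorem s0_mem_AA : s0 ∈ AA := ⟨1, Or.inr (by rw [map_one, one_mul])⟩

theorem ctxO : Ctx AA Set.univ CMm DMm (fun _ => true) ALL s0 piv where
  hmul := fun _ _ _ _ => trivial
  hRa := fun a _ => conj_mem_AA _
  hτ := s0_mem_AA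
  hτv := fun _ hc => s0_tn hc
  hτlt := fun _ hc => piv_lt hc
  hM := by
    intro ψ _ b hb _
    obtain ⟨c, hc, h⟩ := exists_label ψ hb
    exact ⟨c, hc, tb_ALL hc, h⟩
  hcm := hcm_all

/-- An automorphism fixing the labels of a list containing the letters is trivial. -/
theorem eq_one_of_list {l : List ℕ} (hl : (List.range 9).all (fun k => l.elem (lab k)) = true) {ψ : MulAut G0}
    (h : ∀ p ∈ l, ψ (tn p) = tn p) : ψ = 1 := by
  apply eq_one_of_letters
  intro k hk
  apply h
  exact List.elem_iff.1 (List.all_eq_true.1 hl k (List.mem_range.2 hk))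

/-- Every automorphism is inner or inner times the given automorphism. -/
theorem mem_AA (ψ : MulAut G0) : ψ ∈ AA := by
  obtain ⟨ρ, hρ, _, hf⟩ := ch_sound ctxO chO [] chO_ok (by simp) ψ trivial (by simp)
  have h1 := eq_one_of_list chO_letters hf
  have h2 : ψ = ρ⁻¹ := eq_inv_of_mul_eq_one_right h1
  rw [h2]
  exact inv_mem hρ

theorem exists_inner (ψ : MulAut G0) : ∃ g, ψ = MulAut.conj g ∨ ψ = MulAut.conj g * s0 := mem_AA ψ

end Cfsg.Agent.Lib.Fischer.M22.Rows.Out
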