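/-
The fixed points of the three automorphisms of order two of the explicit model of type M(22) are generated by the
transpositions they contain.
-/
import Mathlib
import Cfsg.Agent.Lib.Fischer.M22.Rows.Out.Sig
import Cfsg.Agent.Lib.Fischer.M22.Rows.O8Iso

set_option autoImplicit false
set_option maxRecDepth 100000

namespace Cfsg.Agent.Lib.Fischer.M22.Rows.Out

open Cfsg Cfsg.Agent.Lib.Compute.ToddCoxeterCore Cfsg.Agent.Lib.Compute.TCChain
open Cfsg.Agent.Lib.Fischer.M22.Explicit Cfsg.Agent.Lib.Fischer.M22.Rows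

set_option exponentiation.threshold 4000

/-! ### Outerness -/

theorem piv_two : piv 2 = 2 := by decide +kernel

theorem piv_three : piv 3 = 3 := by decide +kernel

theorem comm_two_three : Commute (tn 2) (tn 3) := by
  rw [comm_iff_fl (by decide) (by decide)]
  decide +kernel

theorem tn_lt2 : (2 : ℕ) < NN := by decide

theorem tn_lt3 : (3 : ℕ) < NN := by decide

theorem tn2_ne : tn 2 ≠ tn 3 := fun h => absurd (tn_inj tn_lt2 tn_lt3 h) (by norm_num)

/-- The transposition `a`. -/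
noncomputable abbrev ta : G0 := tn 2

/-- The transposition `b`. -/
noncomputable abbrev tb' : G0 := tn 3

theorem s0_ta : s0 ta = ta := by
  rw [s0_tn tn_lt2, piv_two]

theorem s0_tb : s0 tb' = tb' := by
  rw [s0_tn tn_lt3, piv_three]

/-! ### A group between the inner automorphisms and the extensions by the given automorphism -/

/-- The automorphisms induced by a subgroup and their products with `s0`. -/
noncomputable def AY (Y : Subgroup G0) (hY : ∀ y ∈ Y, s0 y ∈ Y) : Subgroup (MulAut G0) where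
  carrier := {ρ | ∃ g ∈ Y, ρ = MulAut.conj g ∨ ρ = MulAut.conj g * s0}
  mul_mem' := by
    rintro a b ⟨g, hg, rfl | rfl⟩ ⟨h, hh, rfl | rfl⟩
    · exact ⟨g * h, mul_mem hg hh, Or.inl (map_mul _ _ _).symm⟩
    · exact ⟨g * h, mul_mem hg hh, Or.inr (by rw [map_mul, mul_assoc])⟩
    · exact ⟨g * s0 h, mul_mem hg (hY h hh), Or.inr (by rw [map_mul, mul_assoc, s0_conj, mul_assoc])⟩
    · refine ⟨g * s0 h, mul_mem hg (hY h hh), Or.inl ?_⟩
      rw [map_mul]
      calc MulAut.conj g * s0 * (MulAut.conj h * s0) = MulAut.conj g * (s0 * MulAut.conj h) * s0 := by group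
        _ = MulAut.conj g * (MulAut.conj (s0 h) * s0) * s0 := by rw [s0_conj]
        _ = MulAut.conj g * MulAut.conj (s0 h) * (s0 * s0) := by group
        _ = _ := by rw [s0_sq, mul_one]
  one_mem' := ⟨1, one_mem _, Or.inl (map_one _).symm⟩
  inv_mem' := by
    rintro a ⟨g, hg, rfl | rfl⟩
    · exact ⟨g⁻¹, inv_mem hg, Or.inl (map_inv _ _).symm⟩
    · refine ⟨s0 g⁻¹, hY _ (inv_mem hg), Or.inr ?_⟩
      have h1 : (MulAut.conj g * s0)⁻¹ = s0⁻¹ * (MulAut.conj g)⁻¹ := mul_inv_rev _ _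
      rw [h1, s0_inv, ← map_inv, s0_conj]

/-- The subgroup generated by a mask of transpositions. -/
noncomputable def RM (M : ℕ) : Subgroup G0 := Subgroup.closure {g | ∃ u, u < NN ∧ tb M u = true ∧ g = tn u}

theorem tn_mem_RM {M u : ℕ} (hu : u < NN) (h : tb M u = true) : tn u ∈ RM M :=
  Subgroup.subset_closure ⟨u, hu, h, rfl⟩

theorem conj_inj {g h : G0} (e : MulAut.conj g = MulAut.conj h) : g = h := by
  have h1 : h⁻¹ * g ∈ Subgroup.center G0 := by
    rw [Subgroup.mem_center_iff]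
    intro x
    have h2 := congrArg (fun ρ : MulAut G0 => ρ x) e
    have h3 : g * x * g⁻¹ = h * x * h⁻¹ := h2
    calc x * (h⁻¹ * g) = h⁻¹ * (h * x * h⁻¹) * g := by group
      _ = h⁻¹ * (g * x * g⁻¹) * g := by rw [h3]
      _ = _ := by group
  rw [center0, Subgroup.mem_bot] at h1
  exact (inv_mul_eq_one.1 h1).symm

theorem e1_comm {g : G0} (hg : MulAut.conj g = s0) : g = 1 := by
  apply O8.central
  intro n hn
  have h1 : ∀ x ∈ O8.W, g * x = x * g := by
    intro x hx
    induction hx using Subgroup.closure_induction with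
    | mem x hx =>
      obtain ⟨m, hm, rfl⟩ := hx
      have hlt := O8.lT_lt hm
      have hmask : piv (O8Data.lT m) = O8Data.lT m := by
        have h3 : O8Data.NSL.all (fun m => Nat.beq (piv (O8Data.lT m)) (O8Data.lT m)) = true := by decide +kernel
        exact beq_iff.1 (List.all_eq_true.1 h3 m hm)
      have h2 := congrArg (fun ρ : MulAut G0 => ρ (tn (O8Data.lT m))) hg
      have h4 : g * tn (O8Data.lT m) * g⁻¹ = tn (O8Data.lT m) := by
        have h5 : s0 (tn (O8Data.lT m)) = tn (O8Data.lT m) := by rw [s0_tn hlt, hmask]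
        exact h2.trans h5
      show g * tn (O8Data.lT m) = tn (O8Data.lT m) * g
      calc g * tn (O8Data.lT m) = g * tn (O8Data.lT m) * g⁻¹ * g := by group
        _ = _ := by rw [h4]
    | one => simp
    | mul a b _ _ ha hb => rw [← mul_assoc, ha, mul_assoc, hb, mul_assoc]
    | inv a _ ha =>
      calc g * a⁻¹ = a⁻¹ * (a * g) * a⁻¹ := by group
        _ = a⁻¹ * (g * a) * a⁻¹ := by rw [ha]
        _ = _ := by group
  exact h1 n (O8.E1_le_W hn)

theorem s0_ne_one : s0 ≠ 1 := by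
  intro h
  have h1 : piv 5 ≠ 5 := by decide +kernel
  have h2 := s0_tn (u := 5) (by decide)
  rw [h] at h2
  have h3 : tn 5 = tn (piv 5) := h2
  exact h1 (tn_inj (p := 5) (q := piv 5) (by decide) (piv_lt (by decide)) h3).symm

/-- The automorphism is not inner. -/
theorem s0_outer (g : G0) : MulAut.conj g ≠ s0 := by
  intro h
  have h1 := e1_comm h
  rw [h1, map_one] at h
  exact s0_ne_one h.symm

/-! ### The two steps for a fixed point -/

section Phase

variable {τ : MulAut G0} {τv : ℕ → ℕ} {M : ℕ}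

/-- The hypotheses on an automorphism and the mask of its fixed labels. -/
structure FixH (τ : MulAut G0) (τv : ℕ → ℕ) (M : ℕ) : Prop where
  hv : ∀ c, c < NN → τ (tn c) = tn (τv c)
  hlt : ∀ c, c < NN → τv c < NN
  hm : ∀ c, c < NN → (tb M c = true ↔ τv c = c)
  hbd : Nat.ble (Nat.succ M) (Nat.pow 2 3510) = true

theorem FixH.mask_lt (H : FixH τ τv M) {c : ℕ} (h : tb M c = true) : c < NN :=
  lt_of_tb_mask (Nat.le_of_ble_eq_true H.hbd) h

theorem FixH.RM_le (H : FixH τ τv M) {r : G0} (hr : r ∈ RM M) : τ r = r := by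
  induction hr using Subgroup.closure_induction with
  | mem x hx =>
    obtain ⟨u, hu, hm, rfl⟩ := hx
    rw [H.hv u hu, (H.hm u hu).1 hm]
  | one => simp
  | mul a b _ _ ha hb => rw [map_mul, ha, hb]
  | inv a _ ha => rw [map_inv, ha]

/-- The automorphisms in the first step. -/
def A1 (τ : MulAut G0) : Set (MulAut G0) := {ρ | ∃ c, τ c = c ∧ ρ = MulAut.conj c}

/-- The group in the first step. -/
noncomputable def C1 (M : ℕ) : Subgroup (MulAut G0) := (RM M).map (MulAut.conj : G0 →* MulAut G0)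

theorem ctx1 (H : FixH τ τv M) : Ctx (C1 M) (A1 τ) CMm DMm (RaM M) M 1 (fun c => c) where
  hmul := by
    rintro _ ⟨r, hr, rfl⟩ _ ⟨c, hc, rfl⟩
    refine ⟨r * c, ?_, (map_mul _ _ _).symm⟩
    rw [map_mul, H.RM_le hr, hc]
  hRa := by
    intro a ha
    unfold RaM at ha
    rw [Bool.and_eq_true] at ha
    have h15 : 15 < a := blt_iff.1 ha.1
    have hm : tb M (a - 16) = true := ha.2
    refine ⟨aG a, ?_, rfl⟩
    unfold aG
    rw [if_neg (by omega)]
    exact tn_mem_RM (H.mask_lt hm) hm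
  hτ := one_mem _
  hτv := fun _ _ => rfl
  hτlt := fun _ h => h
  hM := by
    rintro _ ⟨c, hc, rfl⟩ b hb hm
    obtain ⟨d, hd, he⟩ := exists_label (MulAut.conj c) hb
    refine ⟨d, hd, ?_, he⟩
    rw [H.hm d hd]
    apply tn_inj (H.hlt d hd) hd
    rw [← H.hv d hd, ← he]
    show τ (c * tn b * c⁻¹) = c * tn b * c⁻¹
    rw [map_mul, map_mul, map_inv, hc, H.hv b hb, (H.hm b hb).1 hm]
  hcm := hcm_all

/-- The context of the second step. -/
theorem ctx2 (Y : Subgroup G0) (hY : ∀ y ∈ Y, s0 y ∈ Y) {Ra : ℕ → Bool} (hRa : ∀ a, Ra a = true → aG a ∈ Y) (hτ : τ ∈ AY Y hY)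
    (hv : ∀ c, c < NN → τ (tn c) = tn (τv c)) (hlt : ∀ c, c < NN → τv c < NN) :
    Ctx (AY Y hY) Set.univ CMm DMm Ra ALL τ τv where
  hmul := fun _ _ _ _ => trivial
  hRa := fun a ha => ⟨aG a, hRa a ha, Or.inl rfl⟩
  hτ := hτ
  hτv := hv
  hτlt := hlt
  hM := by
    intro ψ _ b hb _
    obtain ⟨c, hc, h⟩ := exists_label ψ hb
    exact ⟨c, hc, tb_ALL hc, h⟩
  hcm := hcm_all

/-- An inner automorphism in the group of a subgroup comes from the subgroup. -/
theorem mem_of_conj_mem {Y : Subgroup G0} {hY : ∀ y ∈ Y, s0 y ∈ Y} {c : G0} (h : MulAut.conj c ∈ AY Y hY) : c ∈ Y := by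
  obtain ⟨g, hg, h1 | h1⟩ := h
  · rw [conj_inj h1]
    exact hg
  · exfalso
    apply s0_outer (g⁻¹ * c)
    rw [map_mul, h1, map_inv]
    group

/-- The general theorem on fixed points. -/
theorem fix_mem {τ₂ : MulAut G0} {τw : ℕ → ℕ} (H : FixH τ τv M) {Y : Subgroup G0} (hY : ∀ y ∈ Y, s0 y ∈ Y) (hYR : Y ≤ RM M)
    {Ra : ℕ → Bool} (hRa : ∀ a, Ra a = true → aG a ∈ Y) (hτ : τ₂ ∈ AY Y hY)
    (hv : ∀ c, c < NN → τ₂ (tn c) = tn (τw c)) (hlt : ∀ c, c < NN → τw c < NN)
    {ch1 ch2 : List St} {st : List ℕ} (h1 : chOK CMm DMm (RaM M) M (fun c => c) ch1 st = true)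
    (h2 : chOK CMm DMm Ra ALL τw ch2 (chPts ch1 st) = true)
    (hlet : (List.range 9).all (fun k => (chPts ch2 (chPts ch1 st)).elem (lab k)) = true)
    (hst : ∀ p ∈ st, p < NN) (hst' : ∀ p ∈ chPts ch1 st, p < NN)
    {c : G0} (hc : τ c = c) (hcs : ∀ p ∈ st, Commute c (tn p)) : c ∈ RM M := by
  obtain ⟨ρ, ⟨r, hr, rfl⟩, ⟨c', hc', he⟩, hf⟩ := ch_sound (ctx1 H) ch1 st h1 hst (MulAut.conj c) ⟨c, hc, rfl⟩ (by
    intro p hp
    show c * tn p * c⁻¹ = tn p
    rw [(hcs p hp).eq]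
    group)
  obtain ⟨ρ₂, hρ₂, _, hf₂⟩ := ch_sound (ctx2 Y hY hRa hτ hv hlt) ch2 _ h2 hst' (MulAut.conj r * MulAut.conj c) trivial hf
  have h3 := eq_one_of_list hlet hf₂
  have h4 : MulAut.conj r * MulAut.conj c = ρ₂⁻¹ := eq_inv_of_mul_eq_one_right h3
  have h5 : MulAut.conj (r * c) ∈ AY Y hY := by
    rw [map_mul, h4]
    exact inv_mem hρ₂
  have h6 := mem_of_conj_mem h5
  have h7 : c = r⁻¹ * (r * c) := by group
  rw [h7]
  exact mul_mem (inv_mem hr) (hYR h6)

end Phase

end Cfsg.Agent.Lib.Fischer.M22.Rows.Out
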