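/-
The fixed points of the three automorphisms of order two of the explicit model of type M(22).
-/
import Mathlib
import Cfsg.Agent.Lib.Fischer.M22.Rows.Out.Fix

set_option autoImplicit false
set_option maxRecDepth 100000

namespace Cfsg.Agent.Lib.Fischer.M22.Rows.Out

open Cfsg Cfsg.Agent.Lib.Compute.ToddCoxeterCore Cfsg.Agent.Lib.Compute.TCChain
open Cfsg.Agent.Lib.Fischer.M22.Explicit Cfsg.Agent.Lib.Fischer.M22.Rows

/-- The second automorphism. -/
noncomputable def τA : MulAut G0 := s0 * MulAut.conj ta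

/-- The third automorphism. -/
noncomputable def τB : MulAut G0 := s0 * MulAut.conj (ta * tb')

theorem τA_apply (g : G0) : τA g = s0 (ta * g * ta⁻¹) := rfl

theorem τB_apply (g : G0) : τB g = s0 ((ta * tb') * g * (ta * tb')⁻¹) := rfl

theorem tn_lt_of (c : ℕ) (hc : c < NN) : tv 2 c < NN := by
  have h := tv_spec ⟨2, tn_lt2⟩ ⟨c, hc⟩
  rw [← h]
  exact Fin.isLt _

theorem tv_lt {u c : ℕ} (hu : u < NN) (hc : c < NN) : tv u c < NN := by
  have h := tv_spec ⟨u, hu⟩ ⟨c, hc⟩
  rw [← h]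
  exact Fin.isLt _

theorem ta_inv : ta⁻¹ = ta := tn_inv' 2

theorem tb_inv : tb'⁻¹ = tb' := tn_inv' 3

theorem τA_tn {c : ℕ} (hc : c < NN) : τA (tn c) = tn (piA c) := by
  rw [τA_apply, ta_inv, tn_conj tn_lt2 hc, s0_tn (tv_lt tn_lt2 hc)]
  rfl

theorem τB_tn {c : ℕ} (hc : c < NN) : τB (tn c) = tn (piB c) := by
  rw [τB_apply, mul_inv_rev, ta_inv, tb_inv]
  have h : ta * tb' * tn c * (tb' * ta) = ta * (tb' * tn c * tb') * ta := by group
  rw [h, tn_conj tn_lt3 hc, tn_conj tn_lt2 (tv_lt tn_lt3 hc), s0_tn (tv_lt tn_lt2 (tv_lt tn_lt3 hc))]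
  rfl

theorem piA_lt {c : ℕ} (hc : c < NN) : piA c < NN := piv_lt (tv_lt tn_lt2 hc)

theorem piB_lt {c : ℕ} (hc : c < NN) : piB c < NN := piv_lt (tv_lt tn_lt2 (tv_lt tn_lt3 hc))

theorem mask_iff {M : ℕ} {f : ℕ → ℕ} (h : allFrom (fun c => bEq (tb M c) (Nat.beq (f c) c)) (nat_lit 3510) (nat_lit 0) = true)
    {c : ℕ} (hc : c < NN) : tb M c = true ↔ f c = c := by
  have h1 := bEq_true (allFrom_spec h c (Nat.zero_le _) (by show c < 0 + 3510; exact hc))
  rw [h1]
  exact beq_iff

theorem H_S : FixH s0 piv MS where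
  hv := fun _ hc => s0_tn hc
  hlt := fun _ hc => piv_lt hc
  hm := fun _ hc => mask_iff MS_chk hc
  hbd := by decide +kernel

theorem H_A : FixH τA piA MA where
  hv := fun _ hc => τA_tn hc
  hlt := fun _ hc => piA_lt hc
  hm := fun _ hc => mask_iff MA_chk hc
  hbd := by decide +kernel

theorem H_B : FixH τB piB MB where
  hv := fun _ hc => τB_tn hc
  hlt := fun _ hc => piB_lt hc
  hm := fun _ hc => mask_iff MB_chk hc
  hbd := by decide +kernel

/-! ### The first automorphism -/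

theorem s0_bot : ∀ y ∈ (⊥ : Subgroup G0), s0 y ∈ (⊥ : Subgroup G0) := by
  intro y hy
  rw [Subgroup.mem_bot] at hy
  rw [hy, map_one]
  exact one_mem _

theorem lt_chS1 : ∀ p ∈ chPts chS1 [], p < NN := by
  have h : (chPts chS1 []).all (fun p => blt p (nat_lit 3510)) = true := by decide +kernel
  exact fun p hp => blt_iff.1 (List.all_eq_true.1 h p hp)

theorem fix_S {c : G0} : s0 c = c ↔ c ∈ RM MS := by
  constructor
  · intro hc
    refine fix_mem H_S (Y := ⊥) s0_bot bot_le (Ra := fun _ => false) (fun _ h => by cases h)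
      (τ₂ := s0) ⟨1, one_mem _, Or.inr (by rw [map_one, one_mul])⟩ (fun _ h => s0_tn h) (fun _ h => piv_lt h)
      chS1_ok chS2_ok chS2_letters (by simp) lt_chS1 hc (by simp)
  · exact H_S.RM_le

/-! ### The second automorphism -/

theorem s0_zp {x : G0} (hx : s0 x = x) : ∀ y ∈ Subgroup.zpowers x, s0 y ∈ Subgroup.zpowers x := by
  rintro y ⟨k, rfl⟩
  exact ⟨k, by simp [hx]⟩

theorem lt_chA1 : ∀ p ∈ chPts chA1 [2], p < NN := by
  have h : (chPts chA1 [2]).all (fun p => blt p (nat_lit 3510)) = true := by decide +kernel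
  exact fun p hp => blt_iff.1 (List.all_eq_true.1 h p hp)

theorem ta_mem_RA : ta ∈ RM MA := tn_mem_RM tn_lt2 (by decide +kernel)

theorem tb_mem_RA : tb' ∈ RM MA := tn_mem_RM tn_lt3 (by decide +kernel)

theorem fix_A_of_comm {c : G0} (hc : τA c = c) (hcs : Commute c ta) : c ∈ RM MA := by
  refine fix_mem H_A (Y := Subgroup.zpowers ta) (s0_zp s0_ta) ?_ (Ra := fun a => Nat.beq a (nat_lit 18)) ?_
    (τ₂ := s0) ⟨1, one_mem _, Or.inr (by rw [map_one, one_mul])⟩ (fun _ h => s0_tn h) (fun _ h => piv_lt h)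
    chA1_ok chA2_ok chA2_letters (by intro p hp; rw [List.mem_singleton] at hp; rw [hp]; exact tn_lt2) lt_chA1 hc ?_
  · rw [Subgroup.zpowers_le]
    exact ta_mem_RA
  · intro a ha
    have h1 : a = 18 := beq_iff.1 ha
    rw [h1]
    have h2 : aG 18 = ta := by
      unfold aG
      rw [if_neg (by norm_num)]
    rw [h2]
    exact Subgroup.mem_zpowers _
  · intro p hp
    rw [List.mem_singleton] at hp
    rw [hp]
    exact hcs

/-- Witnesses. -/
def W6 : List ℕ := [3, 24, 36, 39, 43, 170]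

theorem MA_chk2 : allFrom (fun d => (!(tb MA d)) || (Nat.beq d (nat_lit 2)) || W6.any (fun f => !(fl d f))) (nat_lit 3510) (nat_lit 0) = true := by
  decide +kernel

theorem MA_chk3 : allFrom (fun x => (!(tb MA x)) || fl (nat_lit 2) x) (nat_lit 3510) (nat_lit 0) = true := by
  decide +kernel

theorem W6_chk : W6.all (fun f => tb MA f && blt f (nat_lit 3510)) = true := by decide +kernel

theorem fix_A_comm {c : G0} (hc : τA c = c) : Commute c ta := by
  have C := ctx1 H_A
  obtain ⟨d, hd, hdM, he⟩ := C.hM _ (⟨c, hc, rfl⟩ : MulAut.conj c ∈ A1 τA) 2 tn_lt2 (by decide +kernel)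
  have he' : c * tn 2 * c⁻¹ = tn d := he
  have hd2 : d = 2 := by
    have h1 := allFrom_spec MA_chk2 d (Nat.zero_le _) (by show d < 0 + 3510; exact hd)
    simp only [Bool.or_eq_true, hdM, Bool.not_true] at h1
    rcases h1 with (h1 | h1) | h1
    · cases h1
    · exact beq_iff.1 h1
    · exfalso
      obtain ⟨f, hf, hnf⟩ := List.any_eq_true.1 h1
      have hf2 := List.all_eq_true.1 W6_chk f hf
      rw [Bool.and_eq_true] at hf2
      have hfl : f < NN := blt_iff.1 hf2.2
      have hc' : τA c⁻¹ = c⁻¹ := by rw [map_inv, hc]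
      obtain ⟨f', hf', hfM, hfe⟩ := C.hM _ (⟨c⁻¹, hc', rfl⟩ : MulAut.conj c⁻¹ ∈ A1 τA) f hfl hf2.1
      have hfe' : c⁻¹ * tn f * c⁻¹⁻¹ = tn f' := hfe
      have h3 := allFrom_spec MA_chk3 f' (Nat.zero_le _) (by show f' < 0 + 3510; exact hf')
      simp only [Bool.or_eq_true, hfM, Bool.not_true] at h3
      have h4 : fl 2 f' = true := by
        rcases h3 with h3 | h3
        · cases h3
        · exact h3
      have h5 : Commute (tn 2) (tn f') := (comm_iff_fl tn_lt2 hf').2 h4
      have h6 : Commute (tn d) (tn f) := by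
        have h7 : tn f = c * tn f' * c⁻¹ := by
          rw [← hfe']
          group
        rw [h7, ← he']
        show c * tn 2 * c⁻¹ * (c * tn f' * c⁻¹) = c * tn f' * c⁻¹ * (c * tn 2 * c⁻¹)
        have h9 : tn 2 * tn f' = tn f' * tn 2 := h5
        calc c * tn 2 * c⁻¹ * (c * tn f' * c⁻¹) = c * (tn 2 * tn f') * c⁻¹ := by group
          _ = c * (tn f' * tn 2) * c⁻¹ := by rw [h9]
          _ = _ := by group
      have h8 := (comm_iff_fl hd hfl).1 h6
      rw [h8] at hnf
      cases hnf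
  rw [hd2] at he'
  show c * tn 2 = tn 2 * c
  calc c * tn 2 = c * tn 2 * c⁻¹ * c := by group
    _ = _ := by rw [he']

theorem fix_A {c : G0} : τA c = c ↔ c ∈ RM MA := by
  constructor
  · intro hc
    exact fix_A_of_comm hc (fix_A_comm hc)
  · exact H_A.RM_le

/-! ### The third automorphism -/

theorem lt_chB1 : ∀ p ∈ chPts chB1 [], p < NN := by
  have h : (chPts chB1 []).all (fun p => blt p (nat_lit 3510)) = true := by decide +kernel
  exact fun p hp => blt_iff.1 (List.all_eq_true.1 h p hp)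

theorem ta_mem_RB : ta ∈ RM MB := tn_mem_RM tn_lt2 (by decide +kernel)

theorem tb_mem_RB : tb' ∈ RM MB := tn_mem_RM tn_lt3 (by decide +kernel)

theorem s0_ab : s0 (ta * tb') = ta * tb' := by rw [map_mul, s0_ta, s0_tb]

theorem τB_eq : τB = MulAut.conj (ta * tb') * s0 := by
  unfold τB
  rw [s0_conj, s0_ab]

theorem fix_B {c : G0} : τB c = c ↔ c ∈ RM MB := by
  constructor
  · intro hc
    refine fix_mem H_B (Y := Subgroup.zpowers (ta * tb')) (s0_zp s0_ab) ?_ (Ra := fun _ => false) (fun _ h => by cases h)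
      (τ₂ := τB) ⟨ta * tb', Subgroup.mem_zpowers _, Or.inr τB_eq⟩ (fun _ h => τB_tn h) (fun _ h => piB_lt h)
      chB1_ok chB2_ok chB2_letters (by simp) lt_chB1 hc (by simp)
    rw [Subgroup.zpowers_le]
    exact mul_mem ta_mem_RB tb_mem_RB
  · exact H_B.RM_le

/-! ### The first group is the copy of the automorphism group -/

/-- Membership in the transposition codes. -/
noncomputable def inC (u : ℕ) : Bool := O8Data.NSL.any (fun n => Nat.beq (O8Data.lT n) u)

theorem chkI : allFrom (fun u => (!(tb MS u)) || inC u || inC (tv O8Data.sL u) || inC (tv O8Data.s2L u)) (nat_lit 3510) (nat_lit 0) = true := by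
  decide +kernel

theorem tn_mem_I_of_inC {u : ℕ} (h : inC u = true) : tn u ∈ O8.I := by
  obtain ⟨n, hn, he⟩ := List.any_eq_true.1 h
  rw [← beq_iff.1 he]
  exact O8.W_le_I (O8.tt_mem_W hn)

theorem ss2_mem : tn O8Data.s2L ∈ O8.I := by
  rw [← O8.tv_aS, ← Out.tn_conj (O8.lT_lt O8.aS_NSL) O8.sL_lt]
  have h1 : tn (O8Data.lT O8Data.aS) ∈ O8.I := O8.W_le_I (O8.tt_mem_W O8.aS_NSL)
  exact mul_mem (mul_mem h1 O8.ss_mem_I) h1

theorem RS_eq_I : RM MS = O8.I := by
  apply le_antisymm
  · rw [RM, Subgroup.closure_le]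
    rintro _ ⟨u, hu, hm, rfl⟩
    have h1 := allFrom_spec chkI u (Nat.zero_le _) (by show u < 0 + 3510; exact hu)
    simp only [Bool.or_eq_true, hm, Bool.not_true] at h1
    rcases h1 with ((h1 | h1) | h1) | h1
    · cases h1
    · exact tn_mem_I_of_inC h1
    · have h2 := tn_mem_I_of_inC h1
      rw [← Out.tn_conj O8.sL_lt hu] at h2
      have h3 : tn u = tn O8Data.sL * (tn O8Data.sL * tn u * tn O8Data.sL) * tn O8Data.sL := by
        have := tn_sq O8Data.sL
        calc tn u = (tn O8Data.sL * tn O8Data.sL) * tn u * (tn O8Data.sL * tn O8Data.sL) := by rw [this]; group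
          _ = _ := by group
      rw [h3]
      exact mul_mem (mul_mem O8.ss_mem_I h2) O8.ss_mem_I
    · have hs2 : O8Data.s2L < NN := by decide +kernel
      have h2 := tn_mem_I_of_inC h1
      rw [← Out.tn_conj hs2 hu] at h2
      have h3 : tn u = tn O8Data.s2L * (tn O8Data.s2L * tn u * tn O8Data.s2L) * tn O8Data.s2L := by
        have := tn_sq O8Data.s2L
        calc tn u = (tn O8Data.s2L * tn O8Data.s2L) * tn u * (tn O8Data.s2L * tn O8Data.s2L) := by rw [this]; group
          _ = _ := by group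
      rw [h3]
      exact mul_mem (mul_mem ss2_mem h2) ss2_mem
  · rw [O8.I, Subgroup.closure_le]
    rintro g (rfl | ⟨n, hn, rfl⟩)
    · exact tn_mem_RM O8.sL_lt (by decide +kernel)
    · have hs : O8Data.NSL.all (fun n => tb MS (O8Data.lT n)) = true := by decide +kernel
      exact tn_mem_RM (O8.lT_lt hn) (List.all_eq_true.1 hs n hn)

theorem fix_S' {c : G0} : s0 c = c ↔ c ∈ O8.I := by
  rw [fix_S, RS_eq_I]

end Cfsg.Agent.Lib.Fischer.M22.Rows.Out
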