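/-
The involution `sS` normalizing the Sylow 2-subgroup `T0` of the explicit model of type M(22), and the Sylow 2-subgroup of the
automorphism group.
-/
import Mathlib
import Cfsg.Agent.Lib.Fischer.M22.Rows.Out.Fix2
import Cfsg.Agent.Lib.Fischer.M22.Rows.Out.ClsData
import Cfsg.Agent.Lib.Fischer.M22.Rows.AutFix

set_option autoImplicit false
set_option maxRecDepth 100000

namespace Cfsg.Agent.Lib.Fischer.M22.Rows.Out

open Cfsg Cfsg.Agent.Lib.Compute.ToddCoxeterCore Cfsg.Agent.Lib.Compute.TCChain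
open Cfsg.Agent.Lib.Fischer.M22.Explicit Cfsg.Agent.Lib.Fischer.M22.Rows
open Cfsg.Agent.Lib.Fischer.M22.Rows.SylTwo Cfsg.Agent.Lib.Fischer.M22.Rows.AutFix
open scoped Pointwise

/-! ### Readers -/

/-- The action on the labels. -/
noncomputable def sgv (i : ℕ) : ℕ := Nat.land (Nat.shiftRight sgT (Nat.mul i (nat_lit 12))) (nat_lit 4095)

/-- The action on the 22 transpositions. -/
noncomputable def omg (i : ℕ) : ℕ := Nat.land (Nat.shiftRight omT (Nat.mul i (nat_lit 5))) (nat_lit 31)

/-- The action on the patterns. -/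
noncomputable def sigv (k : ℕ) : ℕ := Nat.land (Nat.shiftRight sigT (Nat.mul k (nat_lit 7))) (nat_lit 127)

/-- The inverses of the patterns. -/
noncomputable def invv (k : ℕ) : ℕ := Nat.land (Nat.shiftRight invT (Nat.mul k (nat_lit 7))) (nat_lit 127)

/-- The reduction of the patterns. -/
noncomputable def redv (k : ℕ) : ℕ := Nat.land (Nat.shiftRight redT (Nat.mul k (nat_lit 7))) (nat_lit 127)

theorem w2_ok : wOK w2A = true := by decide +kernel

theorem w2r_ok : wOK w2A.reverse = true := by decide +kernel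

/-! ### Conjugation by words -/

theorem conj_tn' (g : G0) {u : ℕ} (hu : u < NN) : MulAut.conj g (tn u) = tn ((φ g ⟨u, hu⟩ : Fin NN) : ℕ) := by
  show g * tn u * g⁻¹ = _
  rw [show tn u = t ⟨u, hu⟩ from tn_val ⟨u, hu⟩, t_conj, tn_val]

theorem conj_wE {w : List ℕ} (hw : wOK w = true) {u : ℕ} (hu : u < NN) :
    MulAut.conj (wE w) (tn u) = tn (run aV w u) := by
  rw [conj_tn' _ hu, wE_val hw]

theorem run_lt {w : List ℕ} (hw : wOK w = true) {u : ℕ} (hu : u < NN) : run aV w u < NN := by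
  have h := wE_val hw ⟨u, hu⟩
  have h1 : run aV w u = ((φ (wE w) ⟨u, hu⟩ : Fin NN) : ℕ) := h.symm
  rw [h1]
  exact Fin.isLt _

/-! ### The involution -/

/-- The involution normalizing the Sylow subgroup. -/
noncomputable def sS : MulAut G0 := MulAut.conj (wE w2A) * s0 * (MulAut.conj (wE w2A))⁻¹

theorem sg_chk : allFrom (fun u => Nat.beq (sgv u) (run aV w2A (piv (run aV w2A.reverse u)))) (nat_lit 3510) (nat_lit 0) = true := by
  decide +kernel

theorem sgv_eq {u : ℕ} (hu : u < NN) : sgv u = run aV w2A (piv (run aV w2A.reverse u)) :=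
  beq_iff.1 (allFrom_spec sg_chk u (Nat.zero_le _) (by show u < 0 + 3510; exact hu))

theorem sgv_lt {u : ℕ} (hu : u < NN) : sgv u < NN := by
  rw [sgv_eq hu]
  exact run_lt w2_ok (piv_lt (run_lt w2r_ok hu))

theorem sS_tn {u : ℕ} (hu : u < NN) : sS (tn u) = tn (sgv u) := by
  rw [sgv_eq hu]
  show MulAut.conj (wE w2A) (s0 ((MulAut.conj (wE w2A))⁻¹ (tn u))) = _
  rw [← map_inv, ← wE_rev, conj_wE w2r_ok hu, s0_tn (run_lt w2r_ok hu), conj_wE w2_ok (piv_lt (run_lt w2r_ok hu))]

theorem sS_sq : sS * sS = 1 := by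
  unfold sS
  calc MulAut.conj (wE w2A) * s0 * (MulAut.conj (wE w2A))⁻¹ * (MulAut.conj (wE w2A) * s0 * (MulAut.conj (wE w2A))⁻¹)
      = MulAut.conj (wE w2A) * (s0 * s0) * (MulAut.conj (wE w2A))⁻¹ := by group
    _ = 1 := by rw [s0_sq]; group

theorem sS_inv : sS⁻¹ = sS := inv_eq_of_mul_eq_one_left sS_sq

theorem sS_sS (g : G0) : sS (sS g) = g := by
  have h := congrArg (fun ρ : MulAut G0 => ρ g) sS_sq
  exact h

theorem aut_conj (ψ : MulAut G0) (g : G0) : ψ * MulAut.conj g = MulAut.conj (ψ g) * ψ := by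
  ext x
  show ψ (g * x * g⁻¹) = ψ g * ψ x * (ψ g)⁻¹
  rw [map_mul, map_mul, map_inv]

theorem sS_outer (g : G0) : MulAut.conj g ≠ sS := by
  intro h
  apply s0_outer ((wE w2A)⁻¹ * g * wE w2A)
  have h1 : s0 = (MulAut.conj (wE w2A))⁻¹ * sS * MulAut.conj (wE w2A) := by
    unfold sS
    group
  rw [h1, ← h, map_mul, map_mul, map_inv]

/-! ### Action on the 22 transpositions and on the patterns -/

theorem om_chk : (List.range 22).all (fun i => blt (omg i) (nat_lit 22) && (Nat.beq (sgv (Om i)) (Om (omg i)) && Nat.beq (omg (omg i)) i)) = true := by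
  decide +kernel

theorem omg_lt {i : ℕ} (hi : i < 22) : omg i < 22 := by
  have h := List.all_eq_true.1 om_chk i (List.mem_range.2 hi)
  simp only [Bool.and_eq_true] at h
  exact blt_iff.1 h.1

theorem omg_omg {i : ℕ} (hi : i < 22) : omg (omg i) = i := by
  have h := List.all_eq_true.1 om_chk i (List.mem_range.2 hi)
  simp only [Bool.and_eq_true] at h
  exact beq_iff.1 h.2.2

theorem sgv_Om {i : ℕ} (hi : i < 22) : sgv (Om i) = Om (omg i) := by
  have h := List.all_eq_true.1 om_chk i (List.mem_range.2 hi)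
  simp only [Bool.and_eq_true] at h
  exact beq_iff.1 h.2.1

theorem d_tn {i : ℕ} (hi : i < 22) : d i = tn (Om i) := by
  rw [d_eq hi]
  exact (tn_val (OmF i)).symm

theorem sS_d {i : ℕ} (hi : i < 22) : sS (d i) = d (omg i) := by
  rw [d_tn hi, sS_tn (Om_lt i), sgv_Om hi, d_tn (omg_lt hi)]

theorem sig_chk : (List.range 128).all (fun k => blt (sigv k) (nat_lit 128) &&
    (List.range 22).all (fun i => Nat.beq (sE (sigv k) i) (omg (sE k (omg i))))) = true := by
  decide +kernel

theorem sigv_lt {k : ℕ} (hk : k < 128) : sigv k < 128 := by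
  have h := List.all_eq_true.1 sig_chk k (List.mem_range.2 hk)
  rw [Bool.and_eq_true] at h
  exact blt_iff.1 h.1

theorem sE_sigv {k i : ℕ} (hk : k < 128) (hi : i < 22) : sE (sigv k) i = omg (sE k (omg i)) := by
  have h := List.all_eq_true.1 sig_chk k (List.mem_range.2 hk)
  rw [Bool.and_eq_true] at h
  exact beq_iff.1 (List.all_eq_true.1 h.2 i (List.mem_range.2 hi))

/-- A pattern from the values on the transpositions. -/
theorem pat_of_conj {x : G0} {k : ℕ} (hk : k < 128) (h : ∀ i, i < 22 → x * d i * x⁻¹ = d (sE k i)) : IsPat x k := by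
  intro i hi
  have h1 := h i hi
  rw [d_eq hi, t_conj, d_eq (sE_lt hk hi)] at h1
  exact congrArg Fin.val (t_inj h1)

theorem pat_sS {g : G0} {k : ℕ} (hk : k < 128) (h : IsPat g k) : IsPat (sS g) (sigv k) := by
  apply pat_of_conj (sigv_lt hk)
  intro i hi
  have h1 : d i = sS (d (omg i)) := by rw [sS_d (omg_lt hi), omg_omg hi]
  rw [h1, ← map_inv, ← map_mul, ← map_mul, pat_conj hk h (omg_lt hi), sS_d (sE_lt hk (omg_lt hi)), sE_sigv hk hi]

theorem sS_mem_T0 {g : G0} (h : g ∈ T0) : sS g ∈ T0 := by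
  obtain ⟨k, hk, hp⟩ := h
  exact ⟨sigv k, sigv_lt hk, pat_sS hk hp⟩

/-! ### Inverse patterns -/

theorem inv_chk : (List.range 128).all (fun k => blt (invv k) (nat_lit 128) &&
    (List.range 128).all (fun l => Bool.rec (motive := fun _ => Bool) true (Nat.beq l (invv k)) (Nat.beq (mt k l) (nat_lit 0)))) = true := by
  decide +kernel

theorem invv_lt {k : ℕ} (hk : k < 128) : invv k < 128 := by
  have h := List.all_eq_true.1 inv_chk k (List.mem_range.2 hk)
  rw [Bool.and_eq_true] at h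
  exact blt_iff.1 h.1

theorem eq_invv {k l : ℕ} (hk : k < 128) (hl : l < 128) (h : mt k l = 0) : l = invv k := by
  have h1 := List.all_eq_true.1 inv_chk k (List.mem_range.2 hk)
  rw [Bool.and_eq_true] at h1
  have h2 := List.all_eq_true.1 h1.2 l (List.mem_range.2 hl)
  rw [h] at h2
  exact beq_iff.1 h2

theorem pat_inv {g : G0} {k : ℕ} (hk : k < 128) (h : IsPat g k) : IsPat g⁻¹ (invv k) := by
  obtain ⟨l, hl, hp⟩ := T0.inv_mem (⟨k, hk, h⟩ : g ∈ T0)
  have h1 := pat_mul hk hl h hp
  rw [mul_inv_cancel] at h1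
  have h2 : mt k l = 0 := pat_unique (mt_spec hk hl).1 (by norm_num) h1 pat_one
  rw [← eq_invv hk hl h2]
  exact hp

/-! ### The order of the automorphism group -/

theorem card_aut : Nat.card (MulAut G0) = 2 * Nat.card G0 := by
  let f : Bool × G0 → MulAut G0 := fun a => Bool.rec (MulAut.conj a.2) (MulAut.conj a.2 * s0) a.1
  have hbij : Function.Bijective f := by
    constructor
    · rintro ⟨b, g⟩ ⟨b', g'⟩ h
      cases b <;> cases b'
      · have h1 : MulAut.conj g = MulAut.conj g' := h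
        rw [conj_inj h1]
      · exfalso
        have h1 : MulAut.conj g = MulAut.conj g' * s0 := h
        apply s0_outer (g'⁻¹ * g)
        rw [map_mul, h1, map_inv]
        group
      · exfalso
        have h1 : MulAut.conj g * s0 = MulAut.conj g' := h
        apply s0_outer (g⁻¹ * g')
        rw [map_mul, ← h1, map_inv]
        group
      · have h1 : MulAut.conj g * s0 = MulAut.conj g' * s0 := h
        rw [conj_inj (mul_right_cancel h1)]
    · intro ψ
      obtain ⟨g, h | h⟩ := exists_inner ψ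
      · exact ⟨(false, g), h.symm⟩
      · exact ⟨(true, g), h.symm⟩
  rw [← Nat.card_eq_of_bijective _ hbij, Nat.card_prod]
  simp

/-! ### The Sylow subgroup -/

/-- The Sylow subgroup of the automorphism group. -/
noncomputable def PH : Subgroup (MulAut G0) where
  carrier := {ρ | ∃ g ∈ T0, ρ = MulAut.conj g ∨ ρ = MulAut.conj g * sS}
  mul_mem' := by
    rintro a b ⟨g, hg, rfl | rfl⟩ ⟨h, hh, rfl | rfl⟩
    · exact ⟨g * h, mul_mem hg hh, Or.inl (map_mul _ _ _).symm⟩
    · exact ⟨g * h, mul_mem hg hh, Or.inr (by rw [map_mul, mul_assoc])⟩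
    · exact ⟨g * sS h, mul_mem hg (sS_mem_T0 hh), Or.inr (by rw [map_mul, mul_assoc, aut_conj, mul_assoc])⟩
    · refine ⟨g * sS h, mul_mem hg (sS_mem_T0 hh), Or.inl ?_⟩
      rw [map_mul]
      calc MulAut.conj g * sS * (MulAut.conj h * sS) = MulAut.conj g * (sS * MulAut.conj h) * sS := by group
        _ = MulAut.conj g * (MulAut.conj (sS h) * sS) * sS := by rw [aut_conj]
        _ = MulAut.conj g * MulAut.conj (sS h) * (sS * sS) := by group
        _ = _ := by rw [sS_sq, mul_one]
  one_mem' := ⟨1, one_mem _, Or.inl (map_one _).symm⟩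
  inv_mem' := by
    rintro a ⟨g, hg, rfl | rfl⟩
    · exact ⟨g⁻¹, inv_mem hg, Or.inl (map_inv _ _).symm⟩
    · refine ⟨sS g⁻¹, sS_mem_T0 (inv_mem hg), Or.inr ?_⟩
      have h1 : (MulAut.conj g * sS)⁻¹ = sS⁻¹ * (MulAut.conj g)⁻¹ := mul_inv_rev _ _
      rw [h1, sS_inv, ← map_inv, aut_conj]

theorem card_PH : Nat.card PH = 2 ^ 18 := by
  let f : Bool × T0 → PH := fun a => Bool.rec
    ⟨MulAut.conj a.2.1, a.2.1, a.2.2, Or.inl rfl⟩ ⟨MulAut.conj a.2.1 * sS, a.2.1, a.2.2, Or.inr rfl⟩ a.1
  have hbij : Function.Bijective f := by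
    constructor
    · rintro ⟨b, ⟨g, hg⟩⟩ ⟨b', ⟨g', hg'⟩⟩ h
      have h0 := congrArg Subtype.val h
      cases b <;> cases b'
      · have h1 : MulAut.conj g = MulAut.conj g' := h0
        have h2 : g = g' := conj_inj h1
        subst h2
        rfl
      · exfalso
        have h1 : MulAut.conj g = MulAut.conj g' * sS := h0
        apply sS_outer (g'⁻¹ * g)
        rw [map_mul, h1, map_inv]
        group
      · exfalso
        have h1 : MulAut.conj g * sS = MulAut.conj g' := h0
        apply sS_outer (g⁻¹ * g')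
        rw [map_mul, ← h1, map_inv]
        group
      · have h1 : MulAut.conj g * sS = MulAut.conj g' * sS := h0
        have h2 : g = g' := conj_inj (mul_right_cancel h1)
        subst h2
        rfl
    · rintro ⟨ρ, g, hg, h | h⟩
      · exact ⟨(false, ⟨g, hg⟩), Subtype.ext h.symm⟩
      · exact ⟨(true, ⟨g, hg⟩), Subtype.ext h.symm⟩
  rw [← Nat.card_eq_of_bijective _ hbij, Nat.card_prod, card_T0]
  simp

theorem fact2_aut : (Nat.card (MulAut G0)).factorization 2 = 18 := by
  rw [card_aut, card0]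
  have h : 2 * (64561751654400 : ℕ) = 2 ^ 18 * 492567075 := by norm_num
  rw [h, Nat.factorization_mul (by norm_num) (by norm_num), Nat.Prime.factorization_pow Nat.prime_two]
  have h2 : Nat.factorization 492567075 2 = 0 := Nat.factorization_eq_zero_of_not_dvd (by norm_num)
  simp [h2]

/-- Every involution is conjugate into the Sylow subgroup. -/
theorem exists_conj_PH {t : MulAut G0} (ht : t * t = 1) : ∃ x : MulAut G0, x * t * x⁻¹ ∈ PH := by
  haveI : Fact (Nat.Prime 2) := ⟨Nat.prime_two⟩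
  have hcard : Nat.card PH = 2 ^ (Nat.card (MulAut G0)).factorization 2 := by
    rw [card_PH, fact2_aut]
  let PS : Sylow 2 (MulAut G0) := Sylow.ofCard PH hcard
  have hP : IsPGroup 2 (Subgroup.zpowers t) := by
    rintro ⟨x, n, rfl⟩
    refine ⟨1, Subtype.ext ?_⟩
    have h2 : t ^ 2 = 1 := by rw [pow_two, ht]
    show ((t ^ n) ^ 2 ^ 1 : MulAut G0) = 1
    rw [pow_one, ← zpow_natCast, ← zpow_mul, mul_comm, zpow_mul, zpow_natCast, h2, one_zpow]
  obtain ⟨Q, hQ⟩ := hP.exists_le_sylow
  obtain ⟨g, hg⟩ := MulAction.exists_smul_eq (MulAut G0) Q PS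
  have h3 : ((g • Q : Sylow 2 (MulAut G0)) : Subgroup (MulAut G0)) = PH := by
    rw [hg]
    exact Sylow.coe_ofCard _ _
  rw [Sylow.coe_subgroup_smul] at h3
  have h4 : MulAut.conj g • t ∈ MulAut.conj g • (Q : Subgroup (MulAut G0)) :=
    Subgroup.smul_mem_pointwise_smul _ _ _ (hQ (Subgroup.mem_zpowers t))
  rw [h3] at h4
  exact ⟨g, h4⟩

end Cfsg.Agent.Lib.Fischer.M22.Rows.Out
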