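/-
The classification of the outer involutions of the explicit model of type M(22).
-/
import Mathlib
import Cfsg.Agent.Lib.Fischer.M22.Rows.Out.Cls1

set_option autoImplicit false
set_option maxRecDepth 100000

namespace Cfsg.Agent.Lib.Fischer.M22.Rows.Out

open Cfsg Cfsg.Agent.Lib.Compute.ToddCoxeterCore Cfsg.Agent.Lib.Compute.TCChain
open Cfsg.Agent.Lib.Fischer.M22.Explicit Cfsg.Agent.Lib.Fischer.M22.Rows
open Cfsg.Agent.Lib.Fischer.M22.Rows.SylTwo Cfsg.Agent.Lib.Fischer.M22.Rows.AutFix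

/-- An element times the involution. -/
noncomputable def τn (n : G0) : MulAut G0 := MulAut.conj n * sS

theorem τn_sq (n : G0) : τn n * τn n = MulAut.conj (n * sS n) := by
  unfold τn
  calc MulAut.conj n * sS * (MulAut.conj n * sS) = MulAut.conj n * (sS * MulAut.conj n) * sS := by group
    _ = MulAut.conj n * (MulAut.conj (sS n) * sS) * sS := by rw [aut_conj]
    _ = MulAut.conj n * MulAut.conj (sS n) * (sS * sS) := by group
    _ = _ := by rw [sS_sq, mul_one, map_mul]

theorem τn_conj (g n : G0) : MulAut.conj g * τn n * (MulAut.conj g)⁻¹ = τn (g * n * (sS g)⁻¹) := by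
  unfold τn
  have h1 : sS * (MulAut.conj g)⁻¹ = MulAut.conj (sS g)⁻¹ * sS := by
    rw [← map_inv, aut_conj, map_inv]
  have h2 : MulAut.conj (g * n * (sS g)⁻¹) = MulAut.conj g * MulAut.conj n * MulAut.conj (sS g)⁻¹ := by
    rw [map_mul, map_mul]
  rw [h2]
  calc MulAut.conj g * (MulAut.conj n * sS) * (MulAut.conj g)⁻¹ = MulAut.conj g * MulAut.conj n * (sS * (MulAut.conj g)⁻¹) := by group
    _ = _ := by rw [h1]; group

theorem twist_one {g n : G0} (h : n * sS n = 1) : (g * n * (sS g)⁻¹) * sS (g * n * (sS g)⁻¹) = 1 := by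
  rw [map_mul, map_mul, map_inv, sS_sS]
  calc g * n * (sS g)⁻¹ * (sS g * sS n * g⁻¹) = g * (n * sS n) * g⁻¹ := by group
    _ = 1 := by rw [h]; group

/-! ### The targets -/

/-- The permutations of the targets. -/
noncomputable def tgv : ℕ → ℕ → ℕ
  | 0 => piv
  | 1 => piA
  | _ => piB

/-- The targets. -/
noncomputable def tga : ℕ → MulAut G0
  | 0 => s0
  | 1 => τA
  | _ => τB

theorem tga_tn (e : ℕ) {u : ℕ} (hu : u < NN) : tga e (tn u) = tn (tgv e u) := by
  match e with
  | 0 => exact s0_tn hu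
  | 1 => exact τA_tn hu
  | _ + 2 => exact τB_tn hu

/-- The conclusion. -/
def Gd (ρ : MulAut G0) : Prop := IsConj ρ s0 ∨ IsConj ρ τA ∨ IsConj ρ τB

theorem Gd_tga (e : ℕ) : Gd (tga e) := by
  match e with
  | 0 => exact Or.inl (IsConj.refl _)
  | 1 => exact Or.inr (Or.inl (IsConj.refl _))
  | _ + 2 => exact Or.inr (Or.inr (IsConj.refl _))

theorem Gd_of_conj {ρ ρ' : MulAut G0} (h : IsConj ρ ρ') (h' : Gd ρ') : Gd ρ := by
  rcases h' with h' | h' | h'
  · exact Or.inl (h.trans h')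
  · exact Or.inr (Or.inl (h.trans h'))
  · exact Or.inr (Or.inr (h.trans h'))

theorem Gd_of_eq {ρ ρ' x : MulAut G0} (h : x * ρ * x⁻¹ = ρ') (h' : Gd ρ') : Gd ρ :=
  Gd_of_conj (isConj_iff.2 ⟨x, h⟩) h'

/-- Equality of automorphisms on the letters. -/
theorem aut_ext {ρ₁ ρ₂ : MulAut G0} (h : ∀ k, k < 9 → ρ₁ (tn (lab k)) = ρ₂ (tn (lab k))) : ρ₁ = ρ₂ := by
  have h1 : ρ₂⁻¹ * ρ₁ = 1 := by
    apply eq_one_of_letters
    intro k hk
    show ρ₂⁻¹ (ρ₁ (tn (lab k))) = _
    rw [h k hk]
    exact ρ₂.symm_apply_apply _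
  exact (inv_mul_eq_one.1 h1).symm

/-! ### Words of the elements -/

/-- The atoms of an element of `K`. -/
noncomputable def mkA (c : ℕ) : List ℕ := (mkL c).map (fun i => Om i + 16)

theorem word_d {w : List ℕ} (hw : ∀ x ∈ w, x < 22) : wordEl d w = wE (w.map (fun i => Om i + 16)) := by
  induction w with
  | nil => simp
  | cons x r ih =>
    rw [List.map_cons, wordEl_cons, ih (fun y hy => hw y (by simp [hy]))]
    show wE _ * d x = wordEl aG _
    rw [wordEl_cons, O8.aG_add, d_tn (hw x (by simp))]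

theorem mk_wE {c : ℕ} (hc : c < 1024) : mk c = wE (mkA c) := word_d (mkL_lt hc)

theorem word_eq_mk {w : List ℕ} (hw : ∀ x ∈ w, x < 22) : wordEl d w = mk (cw 0 w) := by
  have h := eq_mk (word_mem_K hw)
  rwa [cde_word hw] at h

theorem sS_word {w : List ℕ} (hw : ∀ x ∈ w, x < 22) : sS (wordEl d w) = wordEl d (w.map omg) := by
  induction w with
  | nil => simp
  | cons x r ih =>
    rw [List.map_cons, wordEl_cons, wordEl_cons, map_mul, ih (fun y hy => hw y (by simp [hy])), sS_d (hw x (by simp))]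

/-- The action of the involution on the codes. -/
noncomputable def Bv (c : ℕ) : ℕ := cw (nat_lit 0) ((mkL c).map omg)

theorem map_omg_lt {c : ℕ} (hc : c < 1024) : ∀ x ∈ (mkL c).map omg, x < 22 := by
  intro x hx
  obtain ⟨y, hy, rfl⟩ := List.mem_map.1 hx
  exact omg_lt (mkL_lt hc y hy)

theorem Bv_lt {c : ℕ} (hc : c < 1024) : Bv c < 1024 := cw_lt (by norm_num) (map_omg_lt hc)

theorem sS_mk {c : ℕ} (hc : c < 1024) : sS (mk c) = mk (Bv c) := by
  show sS (wordEl d (mkL c)) = _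
  rw [sS_word (mkL_lt hc), word_eq_mk (map_omg_lt hc)]
  rfl

theorem map_sE_lt {k c : ℕ} (hk : k < 128) (hc : c < 1024) : ∀ x ∈ (mkL c).map (sE k), x < 22 := by
  intro x hx
  obtain ⟨y, hy, rfl⟩ := List.mem_map.1 hx
  exact sE_lt hk (mkL_lt hc y hy)

theorem Ak_lt {k c : ℕ} (hk : k < 128) (hc : c < 1024) : Ak k c < 1024 := cw_lt (by norm_num) (map_sE_lt hk hc)

theorem conj_mk {x : G0} {k c : ℕ} (hk : k < 128) (h : IsPat x k) (hc : c < 1024) : x * mk c * x⁻¹ = mk (Ak k c) := by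
  show x * wordEl d (mkL c) * x⁻¹ = _
  rw [conj_word hk h (mkL_lt hc), word_eq_mk (map_sE_lt hk hc)]
  rfl

theorem mk_mul {u v : ℕ} (hu : u < 1024) (hv : v < 1024) : mk u * mk v = mk (Nat.xor u v) := by
  have h := eq_mk (K.mul_mem (mk_mem hu) (mk_mem hv))
  rw [cde_mul (mk_mem hu) (mk_mem hv), cde_mk hu, cde_mk hv] at h
  exact h

theorem mk_inv {u : ℕ} (hu : u < 1024) : (mk u)⁻¹ = mk u := by
  apply inv_eq_of_mul_eq_one_left
  have h := K_sq (mk_mem hu)
  rwa [pow_two] at h

/-! ### The final representatives -/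

/-- The check of a final representative. -/
noncomputable def finChk (e : ℕ × ℕ × List ℕ × ℕ) : Bool :=
  wOK e.2.2.1 && (wOK (mkA e.2.1 ++ (wSL.getD e.1 [] ++ e.2.2.1)) && (blt e.2.1 (nat_lit 1024) &&
    (List.range (nat_lit 9)).all (fun k => Nat.beq (run aV (mkA e.2.1 ++ (wSL.getD e.1 [] ++ e.2.2.1)) (sgv (run aV e.2.2.1.reverse (lab k))))
      (tgv e.2.2.2 (lab k)))))

theorem fin_chk : finL.all finChk = true := by decide +kernel

theorem wOK_rev {w : List ℕ} (h : wOK w = true) : wOK w.reverse = true := by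
  unfold wOK at *
  rw [List.all_eq_true] at *
  intro a ha
  exact h a (List.mem_reverse.1 ha)

theorem fin_conj {e : ℕ × ℕ × List ℕ × ℕ} (he : e ∈ finL) : IsConj (τn (gk e.1 * mk e.2.1)) (tga e.2.2.2) := by
  have h := List.all_eq_true.1 fin_chk e he
  unfold finChk at h
  simp only [Bool.and_eq_true] at h
  obtain ⟨h1, h2, h3, h4⟩ := h
  have hc : e.2.1 < 1024 := blt_iff.1 h3
  refine isConj_iff.2 ⟨MulAut.conj (wE e.2.2.1), ?_⟩
  apply aut_ext
  intro k hk
  have hl : lab k < NN := lab_lt k (by omega)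
  have h5 := beq_iff.1 (List.all_eq_true.1 h4 k (List.mem_range.2 hk))
  rw [tga_tn _ hl, ← h5]
  have h6 : wE (mkA e.2.1 ++ (wSL.getD e.1 [] ++ e.2.2.1)) = wE e.2.2.1 * (gk e.1 * mk e.2.1) := by
    rw [wE_append, wE_append, mk_wE hc, mul_assoc]
    rfl
  have h7 : (MulAut.conj (wE e.2.2.1))⁻¹ (tn (lab k)) = tn (run aV e.2.2.1.reverse (lab k)) := by
    rw [← map_inv, ← wE_rev, conj_wE (wOK_rev h1) hl]
  have h8 := run_lt (wOK_rev h1) hl
  show MulAut.conj (wE e.2.2.1) (MulAut.conj (gk e.1 * mk e.2.1) (sS ((MulAut.conj (wE e.2.2.1))⁻¹ (tn (lab k))))) = _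
  have h9 : ∀ (a b y : G0), MulAut.conj a (MulAut.conj b y) = MulAut.conj (a * b) y := by
    intro a b y
    rw [map_mul]
    rfl
  rw [h7, sS_tn h8, ← conj_wE h2 (sgv_lt h8), h6]
  exact h9 _ _ _

/-! ### The codes -/

/-- The involution applied to a word of atoms. -/
noncomputable def sAt (w : List ℕ) : List ℕ := w.map (fun a => sgv (a - 16) + 16)

theorem sS_wE {w : List ℕ} (hw : ∀ a ∈ w, 16 ≤ a ∧ a < 3526) : sS (wE w) = wE (sAt w) := by
  induction w with
  | nil => simp [sAt]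
  | cons a r ih =>
    have h1 := hw a (by simp)
    have h2 : a - 16 < NN := by
      show a - 16 < 3510
      omega
    have h3 : aG a = tn (a - 16) := by
      have h4 := O8.aG_add (a - 16)
      rwa [Nat.sub_add_cancel h1.1] at h4
    show sS (wordEl aG (a :: r)) = wordEl aG ((sgv (a - 16) + 16) :: sAt r)
    rw [wordEl_cons, wordEl_cons, map_mul, O8.aG_add, ← sS_tn h2, ← h3]
    congr 1
    exact ih (fun b hb => hw b (by simp [hb]))

/-- The table of the reduction of the codes. -/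
noncomputable def rdk (T c : ℕ) : ℕ := Nat.land (Nat.shiftRight T (Nat.mul c (nat_lit 10))) (nat_lit 1023)

/-- The code of the square of a lift. -/
noncomputable def Yv (r : ℕ) : ℕ := Cd (run aV (sAt (wSL.getD r []) ++ wSL.getD r []) (nat_lit 58))

/-- The equation of an involution. -/
noncomputable def eqv (r c : ℕ) : ℕ := Nat.xor (Nat.xor (Yv r) (Ak (invv (sigv r)) c)) (Bv c)

/-- The code after the twist. -/
noncomputable def newc (r c u : ℕ) : ℕ := Nat.xor (Nat.xor (Ak (invv r) u) c) (Bv u)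

theorem rep_chk : repL.all (fun r => blt r (nat_lit 128) && ((wSL.getD r []).all (fun a => Nat.ble (nat_lit 16) a && blt a (nat_lit 3526))
    && (wOK (sAt (wSL.getD r []) ++ wSL.getD r []) && redKL.any (fun e => Nat.beq e.1 r)))) = true := by
  decide +kernel

theorem K_chk : redKL.all (fun e => allFrom (fun c => !(Nat.beq (eqv e.1 c) (nat_lit 0)) ||
    (blt (rdk e.2 c) (nat_lit 1024) && finL.any (fun f => Nat.beq f.1 e.1 && Nat.beq f.2.1 (newc e.1 c (rdk e.2 c)))))
    (nat_lit 1024) (nat_lit 0)) = true := by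
  decide +kernel

theorem q0_eq : (q0 : ℕ) = 58 := rfl

theorem reduce_code {r c : ℕ} (hr : r ∈ repL) (hc : c < 1024) (h : (gk r * mk c) * sS (gk r * mk c) = 1) :
    Gd (τn (gk r * mk c)) := by
  have hchk := List.all_eq_true.1 rep_chk r hr
  simp only [Bool.and_eq_true] at hchk
  obtain ⟨hr128, hat, hok, hrk⟩ := hchk
  have hr128' : r < 128 := blt_iff.1 hr128
  have hat' : ∀ a ∈ wSL.getD r [], 16 ≤ a ∧ a < 3526 := by
    intro a ha
    have h1 := List.all_eq_true.1 hat a ha
    rw [Bool.and_eq_true] at h1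
    exact ⟨Nat.le_of_ble_eq_true h1.1, blt_iff.1 h1.2⟩
  have hg := gk_pat hr128'
  have hp : IsPat (gk r * mk c) r := pat_mul_K hg (mk_mem hc)
  have hsp := pat_sS hr128' hp
  have hsg := pat_sS hr128' hg
  have h0 : mt r (sigv r) = 0 := by
    have h1 := pat_mul hr128' (sigv_lt hr128') hp hsp
    rw [h] at h1
    exact pat_unique (mt_spec hr128' (sigv_lt hr128')).1 (by norm_num) h1 pat_one
  -- the square of the lift
  have hyK : gk r * sS (gk r) ∈ K := by
    have h1 := pat_mul hr128' (sigv_lt hr128') hg hsg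
    rw [h0] at h1
    exact pat_zero_iff.1 h1
  have hyw : gk r * sS (gk r) = wE (sAt (wSL.getD r []) ++ wSL.getD r []) := by
    rw [wE_append, ← sS_wE hat']
    rfl
  have hYv : cde (gk r * sS (gk r)) = Yv r := by
    show Cd ((φ (gk r * sS (gk r)) q0 : Fin NN) : ℕ) = _
    rw [hyw, wE_val hok]
    rfl
  have hYlt : Yv r < 1024 := by
    rw [← hYv]
    exact cde_lt hyK
  -- the equation
  have hi128 : invv (sigv r) < 128 := invv_lt (sigv_lt hr128')
  have hcj : (sS (gk r))⁻¹ * mk c * sS (gk r) = mk (Ak (invv (sigv r)) c) := by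
    have h1 := conj_mk hi128 (pat_inv (sigv_lt hr128') hsg) hc
    rwa [inv_inv] at h1
  have hprod : (gk r * sS (gk r)) * mk (Ak (invv (sigv r)) c) * mk (Bv c) = 1 := by
    rw [← hcj, ← h, map_mul, sS_mk hc]
    group
  have heq : eqv r c = 0 := by
    have hA := Ak_lt hi128 hc
    have hB := Bv_lt hc
    have hAK := mk_mem hA
    have hBK := mk_mem hB
    have h1 := congrArg cde hprod
    rw [cde_mul (K.mul_mem hyK hAK) hBK, cde_mul hyK hAK, hYv, cde_mk hA, cde_mk hB, cde_one] at h1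
    exact h1
  obtain ⟨e, he, her⟩ := List.any_eq_true.1 hrk
  have her' : e.1 = r := beq_iff.1 her
  have hK := allFrom_spec (List.all_eq_true.1 K_chk e he) c (Nat.zero_le _) (by show c < 0 + 1024; exact hc)
  rw [her', beq_iff.2 heq] at hK
  simp only [Bool.not_true, Bool.false_or, Bool.and_eq_true] at hK
  obtain ⟨hu, hf⟩ := hK
  obtain ⟨f, hf1, hf2⟩ := List.any_eq_true.1 hf
  rw [Bool.and_eq_true] at hf2
  have hf3 : f.1 = r := beq_iff.1 hf2.1
  have hf4 : f.2.1 = newc r c (rdk e.2 c) := beq_iff.1 hf2.2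
  set u := rdk e.2 c with hu_def
  have hu' : u < 1024 := blt_iff.1 hu
  have hfc := fin_conj hf1
  rw [hf3, hf4] at hfc
  have hBu := Bv_lt hu'
  have hir : invv r < 128 := invv_lt hr128'
  have hAu := Ak_lt hir hu'
  refine Gd_of_eq (x := MulAut.conj (mk u)) ?_ (Gd_of_conj hfc (Gd_tga _))
  rw [τn_conj, sS_mk hu', mk_inv hBu]
  congr 1
  have h1 := conj_mk hir (pat_inv hr128' hg) hu'
  rw [inv_inv] at h1
  have h2 : mk u * gk r = gk r * mk (Ak (invv r) u) := by
    rw [← h1]
    group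
  unfold newc
  rw [← mk_mul (xor_lt hAu hc) hBu, ← mk_mul hAu hc, ← mul_assoc, h2]
  simp only [mul_assoc]

/-! ### The patterns -/

theorem pat_chk : allFrom (fun l => !(Nat.beq (mt l (sigv l)) (nat_lit 0)) ||
    (blt (redv l) (nat_lit 128) && repL.elem (mt (mt (redv l) l) (invv (sigv (redv l)))))) (nat_lit 128) (nat_lit 0) = true := by
  decide +kernel

theorem reduce_pat {n : G0} (hn : n ∈ T0) (h : n * sS n = 1) : Gd (τn n) := by
  obtain ⟨l, hl, hp⟩ := hn
  have h0 : mt l (sigv l) = 0 := by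
    have h1 := pat_mul hl (sigv_lt hl) hp (pat_sS hl hp)
    rw [h] at h1
    exact pat_unique (mt_spec hl (sigv_lt hl)).1 (by norm_num) h1 pat_one
  have hchk := allFrom_spec pat_chk l (Nat.zero_le _) (by show l < 0 + 128; exact hl)
  rw [h0] at hchk
  simp only [Nat.beq_refl, Bool.not_true, Bool.false_or, Bool.and_eq_true] at hchk
  obtain ⟨hx, hr⟩ := hchk
  have hx' : redv l < 128 := blt_iff.1 hx
  set x := redv l with hx_def
  set r := mt (mt x l) (invv (sigv x)) with hr_def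
  have hr' : r ∈ repL := List.elem_iff.1 hr
  have hgx := gk_pat hx'
  have hs128 := sigv_lt hx'
  have hxl := mt_spec hx' hl
  have hn1 : IsPat (gk x * n * (sS (gk x))⁻¹) r :=
    pat_mul hxl.1 (invv_lt hs128) (pat_mul hx' hl hgx hp) (pat_inv hs128 (pat_sS hx' hgx))
  have hr128 : r < 128 := (mt_spec hxl.1 (invv_lt hs128)).1
  have hinv := twist_one (g := gk x) h
  refine Gd_of_eq (x := MulAut.conj (gk x)) (τn_conj _ _) ?_
  set n1 := gk x * n * (sS (gk x))⁻¹ with hn1_def
  have hd := pat_diff (gk_pat hr128) hn1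
  have hc := cde_lt hd
  have he : n1 = gk r * mk (cde ((gk r)⁻¹ * n1)) := by
    rw [← eq_mk hd]
    group
  rw [he] at hinv ⊢
  exact reduce_code hr' hc hinv

/-- Every outer involution is conjugate to one of the three given ones. -/
theorem classify {t : MulAut G0} (ht : t * t = 1) (hout : t ∉ (MulAut.conj : G0 →* MulAut G0).range) : Gd t := by
  obtain ⟨x, hx⟩ := exists_conj_PH ht
  have hcj : IsConj t (x * t * x⁻¹) := isConj_iff.2 ⟨x, rfl⟩
  apply Gd_of_conj hcj
  obtain ⟨n, hn, h | h⟩ := hx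
  · exfalso
    apply hout
    obtain ⟨c, hc⟩ : ∃ c, x = MulAut.conj c ∨ x = MulAut.conj c * s0 := exists_inner x
    -- the inner automorphisms are normal
    refine ⟨x⁻¹ n, ?_⟩
    have h1 : t = x⁻¹ * MulAut.conj n * x := by
      rw [← h]
      group
    rw [h1]
    ext g
    show (x⁻¹ n) * g * (x⁻¹ n)⁻¹ = x⁻¹ (n * (x g) * n⁻¹)
    rw [map_mul, map_mul, map_inv]
    simp
  · rw [h]
    have h2 : (x * t * x⁻¹) * (x * t * x⁻¹) = 1 := by
      calc (x * t * x⁻¹) * (x * t * x⁻¹) = x * (t * t) * x⁻¹ := by group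
        _ = 1 := by rw [ht]; group
    rw [h] at h2
    have h3 : MulAut.conj (n * sS n) = 1 := by
      rw [← τn_sq]
      exact h2
    have h4 : n * sS n = 1 := by
      apply conj_inj
      rw [h3, map_one]
    exact reduce_pat hn h4

/-! ### The three classes are distinct -/

/-- The fixed labels of a mask. -/
noncomputable def fxs (M : ℕ) : Finset ℕ := (Finset.range 3510).filter (fun u => tb M u = true)

theorem fxs_le {ρ₁ ρ₂ : MulAut G0} {v₁ v₂ : ℕ → ℕ} {M₁ M₂ : ℕ} (H₁ : FixH ρ₁ v₁ M₁) (H₂ : FixH ρ₂ v₂ M₂)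
    (h : IsConj ρ₁ ρ₂) : (fxs M₁).card ≤ (fxs M₂).card := by
  obtain ⟨x, hx⟩ := isConj_iff.1 h
  choose f hf hf' using fun u : {u // u < NN} => exists_label x u.2
  classical
  let F : ℕ → ℕ := fun u => if hu : u < NN then f ⟨u, hu⟩ else 0
  have hFval : ∀ u (hu : u < NN), x (tn u) = tn (F u) := by
    intro u hu
    simp only [F, dif_pos hu]
    exact hf' ⟨u, hu⟩
  have hFlt : ∀ u, u < NN → F u < NN := by
    intro u hu
    simp only [F, dif_pos hu]
    exact hf ⟨u, hu⟩
  apply Finset.card_le_card_of_injOn F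
  · intro u hu
    have hu' := (Finset.mem_filter.1 (Finset.mem_coe.1 hu))
    have hlt : u < NN := Finset.mem_range.1 hu'.1
    refine Finset.mem_coe.2 (Finset.mem_filter.2 ⟨Finset.mem_range.2 (hFlt u hlt), ?_⟩)
    rw [H₂.hm _ (hFlt u hlt)]
    apply tn_inj (H₂.hlt _ (hFlt u hlt)) (hFlt u hlt)
    rw [← H₂.hv _ (hFlt u hlt), ← hFval u hlt, ← hx]
    show x (ρ₁ (x⁻¹ (x (tn u)))) = x (tn u)
    have h1 : x⁻¹ (x (tn u)) = tn u := x.symm_apply_apply _
    rw [h1, H₁.hv u hlt, (H₁.hm u hlt).1 hu'.2]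
  · intro u hu v hv huv
    have hu' := (Finset.mem_filter.1 (Finset.mem_coe.1 hu))
    have hv' := (Finset.mem_filter.1 (Finset.mem_coe.1 hv))
    have hult : u < NN := Finset.mem_range.1 hu'.1
    have hvlt : v < NN := Finset.mem_range.1 hv'.1
    apply tn_inj hult hvlt
    apply x.injective
    rw [hFval u hult, hFval v hvlt, huv]

theorem card_count {M n : ℕ} (h : cntF (tb M) (nat_lit 3510) (nat_lit 0) (nat_lit 0) = n) : (fxs M).card = n := by
  rw [cntF_eq] at h
  have h4 : Finset.Ico 0 (0 + 3510) = Finset.range 3510 := by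
    ext x; simp
  rw [h4] at h
  have h5 : 0 + ((Finset.range 3510).filter (fun v => tb M v = true)).card = n := h
  rw [← h5]
  unfold fxs
  omega

theorem card_S : (fxs MS).card = 360 := card_count (by decide +kernel)

theorem card_A : (fxs MA).card = 64 := card_count (by decide +kernel)

theorem card_B : (fxs MB).card = 72 := card_count (by decide +kernel)

theorem not_conj_SA : ¬ IsConj s0 τA := by
  intro h
  have h1 := fxs_le H_S H_A h
  rw [card_S, card_A] at h1
  omega

theorem not_conj_SB : ¬ IsConj s0 τB := by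
  intro h
  have h1 := fxs_le H_S H_B h
  rw [card_S, card_B] at h1
  omega

theorem not_conj_AB : ¬ IsConj τA τB := by
  intro h
  have h1 := fxs_le H_B H_A h.symm
  rw [card_A, card_B] at h1
  omega

end Cfsg.Agent.Lib.Fischer.M22.Rows.Out
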