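/-
Chains of stabilizers for automorphisms of the explicit model of type M(22): an automorphism fixing some transpositions can be
multiplied by a suitable automorphism from a given group so as to fix one more, provided the candidates for the image of the
new transposition (as determined by the commuting relations with the fixed ones) are covered by an orbit tree.
-/
import Mathlib
import Cfsg.Agent.Lib.Fischer.M22.Rows.Words
import Cfsg.Agent.Lib.Fischer.M22.ExplicitFact

set_option autoImplicit false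
set_option maxRecDepth 100000

namespace Cfsg.Agent.Lib.Fischer.M22.Rows.Out

open Cfsg Cfsg.Agent.Lib.Compute.ToddCoxeterCore Cfsg.Agent.Lib.Compute.TCChain
open Cfsg.Agent.Lib.Compute.ToddCoxeterPresented hiding TT
open Cfsg.Agent.Lib.Fischer.M22.Explicit Cfsg.Agent.Lib.Fischer.M22.Rows
open Cfsg.Agent.Lib.Compute.TC

/-! ### Bits -/

theorem tb_eq (m q : ℕ) : tb m q = m.testBit q := by
  unfold tb
  have h : Nat.land (Nat.shiftRight m q) 1 = (m / 2 ^ q) % 2 := by
    show (m >>> q) &&& 1 = _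
    rw [Nat.and_one_is_mod, Nat.shiftRight_eq_div_pow]
  rw [h, Nat.testBit_eq_decide_div_mod_eq]
  cases h2 : decide (m / 2 ^ q % 2 = 1) with
  | false =>
    have h3 : m / 2 ^ q % 2 ≠ 1 := by simpa using h2
    have h4 : m / 2 ^ q % 2 = 0 := by omega
    rw [h4]
    rfl
  | true =>
    have h3 : m / 2 ^ q % 2 = 1 := by simpa using h2
    rw [h3]
    rfl

theorem tb_land (a b q : ℕ) : tb (Nat.land a b) q = (tb a q && tb b q) := by
  rw [tb_eq, tb_eq, tb_eq]
  exact Nat.testBit_land a b q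

theorem tb_lor (a b q : ℕ) : tb (Nat.lor a b) q = (tb a q || tb b q) := by
  rw [tb_eq, tb_eq, tb_eq]
  exact Nat.testBit_or a b q

theorem tb_xor (a b q : ℕ) : tb (Nat.xor a b) q = (xor (tb a q) (tb b q)) := by
  rw [tb_eq, tb_eq, tb_eq]
  exact Nat.testBit_xor a b q

theorem tb_zero (q : ℕ) : tb 0 q = false := by
  rw [tb_eq]
  exact Nat.zero_testBit q

/-- The mask of all labels. -/
noncomputable def ALL : ℕ := Nat.sub (Nat.pow (nat_lit 2) (nat_lit 3510)) (nat_lit 1)

set_option exponentiation.threshold 4000 in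
theorem tb_ALL {q : ℕ} (hq : q < NN) : tb ALL q = true := by
  rw [tb_eq]
  show (2 ^ 3510 - 1).testBit q = true
  rw [Nat.testBit_two_pow_sub_one]
  exact decide_eq_true hq

/-- The mask of one label. -/
noncomputable def bt (c : ℕ) : ℕ := Nat.shiftLeft (nat_lit 1) c

theorem tb_bt (c q : ℕ) : tb (bt c) q = Nat.beq c q := by
  rw [tb_eq]
  have h : bt c = 2 ^ c := by
    show 1 <<< c = _
    rw [Nat.shiftLeft_eq, one_mul]
  rw [h, Nat.testBit_two_pow]
  cases h2 : Nat.beq c q with
  | true =>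
    rw [beq_iff.1 h2]
    simp
  | false =>
    have h3 : c ≠ q := by
      intro h4
      rw [h4, Nat.beq_refl] at h2
      cases h2
    simp [h3]

/-- The mask of a list. -/
noncomputable def mkM : List ℕ → ℕ
  | [] => 0
  | c :: r => Nat.lor (bt c) (mkM r)

theorem tb_mkM {l : List ℕ} {q : ℕ} (h : tb (mkM l) q = true) : q ∈ l := by
  induction l with
  | nil =>
    have h1 : tb 0 q = true := h
    rw [tb_zero] at h1
    cases h1
  | cons c r ih =>
    have h1 : tb (Nat.lor (bt c) (mkM r)) q = true := h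
    rw [tb_lor, Bool.or_eq_true] at h1
    rcases h1 with h1 | h1
    · rw [tb_bt] at h1
      rw [← beq_iff.1 h1]
      simp
    · exact List.mem_cons_of_mem _ (ih h1)

/-! ### Flags -/

/-- The commuting flag of two labels. -/
noncomputable def fl (p x : ℕ) : Bool := Nat.beq (tv p x) x

theorem comm_iff_fl {p x : ℕ} (hp : p < NN) (hx : x < NN) : Commute (tn p) (tn x) ↔ fl p x = true := by
  have h1 : tn p = t ⟨p, hp⟩ := tn_val ⟨p, hp⟩
  have h2 : tn x = t ⟨x, hx⟩ := tn_val ⟨x, hx⟩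
  rw [h1, h2, comm_t_iff]
  unfold fl
  rw [beq_iff, ← tv_spec ⟨p, hp⟩ ⟨x, hx⟩]
  constructor
  · intro h
    rw [h]
  · intro h
    exact Fin.ext h

theorem tn_conj {g q : ℕ} (hg : g < NN) (hq : q < NN) : tn g * tn q * tn g = tn (tv g q) := by
  have h1 := tv_spec ⟨g, hg⟩ ⟨q, hq⟩
  have h2 : tn (tv g q) = t (φ (t ⟨g, hg⟩) ⟨q, hq⟩) := by
    rw [← h1]
    exact tn_val _
  rw [h2, ← t_tp, ← tn_val, ← tn_val]

theorem tn_inv' (n : ℕ) : (tn n)⁻¹ = tn n := inv_eq_of_mul_eq_one_left (tn_sq n)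

theorem tn_inj {p q : ℕ} (hp : p < NN) (hq : q < NN) (h : tn p = tn q) : p = q := by
  have h1 : tn p = t ⟨p, hp⟩ := tn_val ⟨p, hp⟩
  have h2 : tn q = t ⟨q, hq⟩ := tn_val ⟨q, hq⟩
  rw [h1, h2] at h
  exact congrArg Fin.val (t_inj h)

theorem conj_tn (g : G0) {q : ℕ} (hq : q < NN) : g * tn q * g⁻¹ = tn (φ g ⟨q, hq⟩ : Fin NN) := by
  have h1 : tn q = t ⟨q, hq⟩ := tn_val ⟨q, hq⟩
  rw [h1, t_conj]
  exact (tn_val _).symm

set_option exponentiation.threshold 4000 in
theorem lt_of_tb_mask {m q : ℕ} (hm : m < 2 ^ 3510) (h : tb m q = true) : q < NN := by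
  by_contra hq
  have h1 : tb m q = false := by
    rw [tb_eq]
    apply Nat.testBit_lt_two_pow
    calc m < 2 ^ 3510 := hm
      _ ≤ 2 ^ q := Nat.pow_le_pow_right (by norm_num) (by
        have : ¬ q < 3510 := hq
        omega)
  rw [h] at h1
  cases h1

/-! ### Levels -/

/-- A level: the new label, the labels used for the commuting pattern, generators of a group fixing the earlier labels, the
orbit tree of the new label, and the remaining candidates, which are to be moved to the tree by the extra automorphism. -/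
structure Lv where
  b : ℕ
  pat : List ℕ
  gens : List (List ℕ)
  tr : List (ℕ × ℕ × ℕ)
  oth : List ℕ

/-- The mask of an orbit tree. -/
noncomputable def trM (gens : List (List ℕ)) : List (ℕ × ℕ × ℕ) → ℕ → ℕ
  | [], m => m
  | e :: r, m =>
    Bool.rec (motive := fun _ => ℕ) 0
      (frc (Nat.lor m (bt e.1)) (trM gens r))
      (Bool.rec (motive := fun _ => Bool) false
        (Nat.beq (run aV (gens.getD e.2.1 []) e.2.2) e.1) (tb m e.2.2))

/-- The cell of a label, given the commuting masks. -/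
noncomputable def cellM (CM : ℕ → ℕ) (b : ℕ) : List ℕ → ℕ → ℕ
  | [], c => c
  | p :: r, c =>
    frc (CM p) fun m =>
      frc (Bool.rec (motive := fun _ => ℕ) (Nat.land c (Nat.xor ALL m)) (Nat.land c m) (tb m b)) (cellM CM b r)

/-- The check of a level. -/
noncomputable def lvOK (CM : ℕ → ℕ) (DM : ℕ → Bool) (Ra : ℕ → Bool) (M : ℕ) (τv : ℕ → ℕ) (pts : List ℕ) (L : Lv) : Bool :=
  frc (trM L.gens L.tr (bt L.b)) fun T =>
    (blt L.b (nat_lit 3510)) && (tb M L.b) && (tb T L.b) &&
    (L.pat.all (fun p => pts.elem p && DM p)) &&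
    (L.gens.all (fun w => wOK w && w.all Ra && pts.all (fun p => Nat.beq (run aV w p) p))) &&
    (L.oth.isEmpty || pts.all (fun p => Nat.beq (τv p) p)) &&
    (L.oth.all (fun c => tb T (τv c))) &&
    (Nat.beq (Nat.land (cellM CM L.b L.pat (Nat.land ALL M)) (Nat.xor ALL (Nat.lor (Nat.lor T (mkM L.oth)) (mkM pts)))) (nat_lit 0))

/-- Decoding a tree: child, parent and generator in 32 bits. -/
noncomputable def decT : ℕ → ℕ → List (ℕ × ℕ × ℕ)
  | 0, _ => []
  | n + 1, m =>
    frc (Nat.land m (nat_lit 4095)) fun c =>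
      frc (Nat.land (Nat.shiftRight m (nat_lit 12)) (nat_lit 4095)) fun p =>
        frc (Nat.land (Nat.shiftRight m (nat_lit 24)) (nat_lit 255)) fun g =>
          frc (Nat.shiftRight m (nat_lit 32)) fun m' => (c, g, p) :: decT n m'

/-- A step of a chain. -/
inductive St where
  | tp (x u v : ℕ) : St
  | lv (L : Lv) : St

/-- The new label of a step. -/
def St.pt : St → ℕ
  | .tp x _ _ => x
  | .lv L => L.b

/-- The check of a step. -/
noncomputable def stOK (CM : ℕ → ℕ) (DM : ℕ → Bool) (Ra : ℕ → Bool) (M : ℕ) (τv : ℕ → ℕ) (pts : List ℕ) : St → Bool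
  | .tp x u v => pts.elem u && pts.elem v && Nat.beq (tv u v) x && blt x (nat_lit 3510)
  | .lv L => lvOK CM DM Ra M τv pts L

/-- The check of a chain. -/
noncomputable def chOK (CM : ℕ → ℕ) (DM : ℕ → Bool) (Ra : ℕ → Bool) (M : ℕ) (τv : ℕ → ℕ) : List St → List ℕ → Bool
  | [], _ => true
  | s :: r, pts => stOK CM DM Ra M τv pts s && chOK CM DM Ra M τv r (s.pt :: pts)

/-- The labels at the end of a chain. -/
def chPts : List St → List ℕ → List ℕ
  | [], pts => pts
  | s :: r, pts => chPts r (s.pt :: pts)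

/-! ### The context -/

/-- The hypotheses for a chain. -/
structure Ctx (𝒞 : Subgroup (MulAut G0)) (𝒜 : Set (MulAut G0)) (CM : ℕ → ℕ) (DM : ℕ → Bool) (Ra : ℕ → Bool) (M : ℕ) (τ : MulAut G0)
    (τv : ℕ → ℕ) : Prop where
  hmul : ∀ ρ ∈ 𝒞, ∀ ψ ∈ 𝒜, ρ * ψ ∈ 𝒜
  hRa : ∀ a, Ra a = true → MulAut.conj (aG a) ∈ 𝒞
  hτ : τ ∈ 𝒞
  hτv : ∀ c, c < NN → τ (tn c) = tn (τv c)
  hτlt : ∀ c, c < NN → τv c < NN
  hM : ∀ ψ ∈ 𝒜, ∀ b, b < NN → tb M b = true → ∃ c, c < NN ∧ tb M c = true ∧ ψ (tn b) = tn c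
  hcm : ∀ p x, DM p = true → p < NN → x < NN → tb (CM p) x = fl p x

variable {𝒞 : Subgroup (MulAut G0)} {𝒜 : Set (MulAut G0)} {CM : ℕ → ℕ} {DM : ℕ → Bool} {Ra : ℕ → Bool} {M : ℕ} {τ : MulAut G0} {τv : ℕ → ℕ}

/-- The group of the generators of a level. -/
noncomputable def Hg (gens : List (List ℕ)) : Subgroup G0 := Subgroup.closure {g | ∃ w ∈ gens, g = wE w}

theorem gen_mem (gens : List (List ℕ)) (i : ℕ) : wE (gens.getD i []) ∈ Hg gens := by
  by_cases hi : i < gens.length
  · rw [List.getD_eq_getElem _ _ hi]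
    exact Subgroup.subset_closure ⟨_, List.getElem_mem hi, rfl⟩
  · rw [List.getD_eq_default _ _ (by omega)]
    exact one_mem _

theorem trM_spec {gens : List (List ℕ)} (hok : ∀ w ∈ gens, wOK w = true) {b : ℕ} (hb : b < NN) :
    ∀ (tr : List (ℕ × ℕ × ℕ)) (m : ℕ), (∀ x, tb m x = true → x < NN ∧ ∃ u ∈ Hg gens, u * tn b * u⁻¹ = tn x) →
      ∀ x, tb (trM gens tr m) x = true → x < NN ∧ ∃ u ∈ Hg gens, u * tn b * u⁻¹ = tn x := by
  intro tr
  induction tr with
  | nil =>
    intro m hm x hx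
    exact hm x hx
  | cons e r ih =>
    intro m hm x hx
    rcases e with ⟨ch, i, pa⟩
    have hx' : tb (Bool.rec (motive := fun _ => ℕ) 0
      (frc (Nat.lor m (bt ch)) (trM gens r))
      (Bool.rec (motive := fun _ => Bool) false
        (Nat.beq (run aV (gens.getD i []) pa) ch) (tb m pa))) x = true := hx
    cases h1 : tb m pa with
    | false =>
      rw [h1] at hx'
      simp only [] at hx'
      rw [tb_zero] at hx'
      cases hx'
    | true =>
      rw [h1] at hx'
      simp only [] at hx'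
      cases h2 : Nat.beq (run aV (gens.getD i []) pa) ch with
      | false =>
        rw [h2] at hx'
        simp only [] at hx'
        rw [tb_zero] at hx'
        cases hx'
      | true =>
        rw [h2] at hx'
        simp only [frc_eq] at hx'
        refine ih _ ?_ x hx'
        intro y hy
        rw [tb_lor, Bool.or_eq_true] at hy
        rcases hy with hy | hy
        · exact hm y hy
        · rw [tb_bt] at hy
          have hy' : ch = y := beq_iff.1 hy
          subst hy'
          obtain ⟨hlt, u, hu, hue⟩ := hm pa h1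
          have hw : wOK (gens.getD i []) = true := by
            by_cases hi : i < gens.length
            · rw [List.getD_eq_getElem _ _ hi]
              exact hok _ (List.getElem_mem hi)
            · rw [List.getD_eq_default _ _ (by omega)]
              rfl
          have h3 := wE_val hw ⟨pa, hlt⟩
          have h4 : ((φ (wE (gens.getD i [])) ⟨pa, hlt⟩ : Fin NN) : ℕ) = ch := by
            rw [h3]
            exact beq_iff.1 h2
          refine ⟨by rw [← h4]; exact Fin.isLt _, wE (gens.getD i []) * u, mul_mem (gen_mem gens i) hu, ?_⟩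
          have h5 := conj_tn (wE (gens.getD i [])) hlt
          rw [h4] at h5
          rw [← h5, ← hue]
          group

theorem trM_root {gens : List (List ℕ)} {b : ℕ} (hb : b < NN) :
    ∀ x, tb (bt b) x = true → x < NN ∧ ∃ u ∈ Hg gens, u * tn b * u⁻¹ = tn x := by
  intro x hx
  rw [tb_bt] at hx
  rw [← beq_iff.1 hx]
  exact ⟨hb, 1, one_mem _, by simp⟩

theorem cellM_spec (H : ∀ p x, DM p = true → p < NN → x < NN → tb (CM p) x = fl p x) {b x : ℕ} (hb : b < NN) (hx : x < NN) :
    ∀ (pat : List ℕ) (c : ℕ), (∀ p ∈ pat, DM p = true ∧ p < NN ∧ fl p x = fl p b) → tb c x = true → tb (cellM CM b pat c) x = true := by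
  intro pat
  induction pat with
  | nil =>
    intro c _ h
    exact h
  | cons p r ih =>
    intro c hp h
    show tb (frc (CM p) fun m =>
      frc (Bool.rec (motive := fun _ => ℕ) (Nat.land c (Nat.xor ALL m)) (Nat.land c m) (tb m b)) (cellM CM b r)) x = true
    simp only [frc_eq]
    apply ih _ (fun q hq => hp q (by simp [hq]))
    obtain ⟨hpD, hpl, hpx⟩ := hp p (by simp)
    rw [H p b hpD hpl hb]
    rw [← hpx]
    cases h1 : fl p x with
    | true =>
      simp only []
      rw [tb_land, h, H p x hpD hpl hx, h1]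
      rfl
    | false =>
      simp only []
      rw [tb_land, h, tb_xor, H p x hpD hpl hx, h1, tb_ALL hx]
      rfl

theorem flag_of_fix {ψ : MulAut G0} {p x c : ℕ} (hp : p < NN) (hx : x < NN) (hc : c < NN) (h1 : ψ (tn p) = tn p)
    (h2 : ψ (tn x) = tn c) : fl p c = fl p x := by
  have h3 : Commute (tn p) (tn x) ↔ Commute (tn p) (tn c) := by
    constructor
    · intro h
      have h4 := congrArg ψ h.eq
      rw [map_mul, map_mul, h1, h2] at h4
      exact h4
    · intro h
      have h4 : ψ (tn p * tn x) = ψ (tn x * tn p) := by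
        rw [map_mul, map_mul, h1, h2]
        exact h.eq
      exact ψ.injective h4
  rw [comm_iff_fl hp hx, comm_iff_fl hp hc] at h3
  cases h4 : fl p x <;> cases h5 : fl p c <;> simp [h4, h5] at h3 ⊢

/-- One level. -/
theorem lv_sound (C : Ctx 𝒞 𝒜 CM DM Ra M τ τv) {pts : List ℕ} {L : Lv} (hL : lvOK CM DM Ra M τv pts L = true)
    (hpts : ∀ p ∈ pts, p < NN) {ψ : MulAut G0} (hψ : ψ ∈ 𝒜)
    (hfix : ∀ p ∈ pts, ψ (tn p) = tn p) :
    ∃ ρ ∈ 𝒞, ρ * ψ ∈ 𝒜 ∧ ∀ p ∈ L.b :: pts, (ρ * ψ) (tn p) = tn p := by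
  simp only [lvOK, frc_eq, Bool.and_eq_true] at hL
  obtain ⟨⟨⟨⟨⟨⟨⟨hblt, hbM⟩, hbT⟩, hpat⟩, hgens⟩, hτf⟩, hoth⟩, hcell⟩ := hL
  have hb : L.b < NN := blt_iff.1 hblt
  have hgens' : ∀ w ∈ L.gens, wOK w = true ∧ w.all Ra = true ∧ pts.all (fun p => Nat.beq (run aV w p) p) = true := by
    intro w hw
    have h := List.all_eq_true.1 hgens w hw
    simp only [Bool.and_eq_true] at h
    exact ⟨h.1.1, h.1.2, h.2⟩
  set T := trM L.gens L.tr (bt L.b) with hT
  have hTs := trM_spec (gens := L.gens) (fun w hw => (hgens' w hw).1) hb L.tr (bt L.b) (trM_root hb)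
  rw [← hT] at hTs
  -- the group of the level
  have hHR : ∀ u ∈ Hg L.gens, MulAut.conj u ∈ 𝒞 := by
    intro u hu
    induction hu using Subgroup.closure_induction with
    | mem g hg =>
      obtain ⟨w, hw, rfl⟩ := hg
      have hall := (hgens' w hw).2.1
      have : ∀ w' : List ℕ, w'.all Ra = true → MulAut.conj (wE w') ∈ 𝒞 := by
        intro w' hw'
        induction w' with
        | nil =>
          show MulAut.conj (1 : G0) ∈ 𝒞
          rw [map_one]
          exact one_mem _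
        | cons a r ih =>
          simp only [List.all_cons, Bool.and_eq_true] at hw'
          show MulAut.conj (wordEl aG r * aG a) ∈ 𝒞
          rw [map_mul]
          exact mul_mem (ih hw'.2) (C.hRa a hw'.1)
      exact this w hall
    | one =>
      rw [map_one]
      exact one_mem _
    | mul a b _ _ ha hb =>
      rw [map_mul]
      exact mul_mem ha hb
    | inv a _ ha =>
      rw [map_inv]
      exact inv_mem ha
  have hHfix : ∀ u ∈ Hg L.gens, ∀ p ∈ pts, u * tn p * u⁻¹ = tn p := by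
    intro u hu p hp
    induction hu using Subgroup.closure_induction with
    | mem g hg =>
      obtain ⟨w, hw, rfl⟩ := hg
      have h1 := beq_iff.1 (List.all_eq_true.1 (hgens' w hw).2.2 p hp)
      have h2 := wE_val (hgens' w hw).1 ⟨p, hpts p hp⟩
      have h3 := conj_tn (wE w) (hpts p hp)
      rw [h3, h2]
      show tn (run aV w p) = _
      rw [h1]
    | one => simp
    | mul a b _ _ ha hb =>
      calc a * b * tn p * (a * b)⁻¹ = a * (b * tn p * b⁻¹) * a⁻¹ := by group
        _ = tn p := by rw [hb, ha]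
    | inv a _ ha =>
      calc a⁻¹ * tn p * a⁻¹⁻¹ = a⁻¹ * (a * tn p * a⁻¹) * a := by rw [ha]; group
        _ = tn p := by group
  -- the final step from a candidate in the tree
  have final : ∀ ψ' ∈ 𝒜, (∀ p ∈ pts, ψ' (tn p) = tn p) → ∀ c, tb T c = true → ψ' (tn L.b) = tn c →
      ∃ ρ ∈ 𝒞, ρ * ψ' ∈ 𝒜 ∧ ∀ p ∈ L.b :: pts, (ρ * ψ') (tn p) = tn p := by
    intro ψ' hψ' hf c hc he
    obtain ⟨_, u, hu, hue⟩ := hTs c hc
    refine ⟨MulAut.conj u⁻¹, by rw [map_inv]; exact inv_mem (hHR u hu), C.hmul _ (by rw [map_inv]; exact inv_mem (hHR u hu)) _ hψ', ?_⟩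
    intro p hp
    rcases List.mem_cons.1 hp with rfl | hp
    · show MulAut.conj u⁻¹ (ψ' (tn L.b)) = _
      rw [he, ← hue, MulAut.conj_apply]
      group
    · show MulAut.conj u⁻¹ (ψ' (tn p)) = _
      rw [hf p hp, MulAut.conj_apply]
      have := hHfix u hu p hp
      calc u⁻¹ * tn p * u⁻¹⁻¹ = u⁻¹ * (u * tn p * u⁻¹) * u := by rw [this]; group
        _ = tn p := by group
  obtain ⟨c, hc, hcM, hce⟩ := C.hM ψ hψ L.b hb hbM
  have hcpat : ∀ p ∈ L.pat, DM p = true ∧ p < NN ∧ fl p c = fl p L.b := by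
    intro p hp
    have hp2 := List.all_eq_true.1 hpat p hp
    rw [Bool.and_eq_true] at hp2
    have hp' : p ∈ pts := List.elem_iff.1 hp2.1
    exact ⟨hp2.2, hpts p hp', flag_of_fix (hpts p hp') hb hc (hfix p hp') hce⟩
  have hcc := cellM_spec C.hcm hb hc L.pat (Nat.land ALL M) hcpat (by rw [tb_land, tb_ALL hc, hcM]; rfl)
  have h0 : tb (Nat.land (cellM CM L.b L.pat (Nat.land ALL M)) (Nat.xor ALL (Nat.lor (Nat.lor T (mkM L.oth)) (mkM pts)))) c = false := by
    rw [beq_iff.1 hcell]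
    exact tb_zero c
  rw [tb_land, hcc, tb_xor, tb_ALL hc, tb_lor, tb_lor] at h0
  have h1 : ((tb T c || tb (mkM L.oth) c) || tb (mkM pts) c) = true := by
    cases h2 : ((tb T c || tb (mkM L.oth) c) || tb (mkM pts) c) with
    | true => rfl
    | false =>
      rw [h2] at h0
      cases h0
  rw [Bool.or_eq_true, Bool.or_eq_true] at h1
  rcases h1 with (h1 | h1) | h1
  · exact final ψ hψ hfix c h1 hce
  rotate_left
  · have hmem := tb_mkM h1
    have h3 : tn L.b = tn c := by
      apply ψ.injective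
      rw [hce, hfix c hmem]
    have h4 : L.b = c := tn_inj hb (hpts c hmem) h3
    rw [← h4] at hce
    exact final ψ hψ hfix L.b hbT hce
  · have hmem := tb_mkM h1
    have hne : L.oth ≠ [] := by
      intro h
      rw [h] at hmem
      cases hmem
    have hτp : ∀ p ∈ pts, τ (tn p) = tn p := by
      intro p hp
      rw [Bool.or_eq_true] at hτf
      rcases hτf with h3 | h3
      · exfalso
        apply hne
        cases hoth' : L.oth with
        | nil => rfl
        | cons _ _ =>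
          rw [hoth'] at h3
          cases h3
      · rw [C.hτv p (hpts p hp), beq_iff.1 (List.all_eq_true.1 h3 p hp)]
    have hτc := List.all_eq_true.1 hoth c hmem
    obtain ⟨ρ, hρ, hρψ, hρf⟩ := final (τ * ψ) (C.hmul _ C.hτ _ hψ) (by
      intro p hp
      show τ (ψ (tn p)) = _
      rw [hfix p hp, hτp p hp]) (τv c) hτc (by
      show τ (ψ (tn L.b)) = _
      rw [hce, C.hτv c hc])
    refine ⟨ρ * τ, mul_mem hρ C.hτ, ?_, ?_⟩
    · rw [mul_assoc]
      exact hρψ
    · rw [mul_assoc]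
      exact hρf

/-- One step. -/
theorem st_sound (C : Ctx 𝒞 𝒜 CM DM Ra M τ τv) {pts : List ℕ} {s : St} (hs : stOK CM DM Ra M τv pts s = true)
    (hpts : ∀ p ∈ pts, p < NN) {ψ : MulAut G0} (hψ : ψ ∈ 𝒜)
    (hfix : ∀ p ∈ pts, ψ (tn p) = tn p) :
    s.pt < NN ∧ ∃ ρ ∈ 𝒞, ρ * ψ ∈ 𝒜 ∧ ∀ p ∈ s.pt :: pts, (ρ * ψ) (tn p) = tn p := by
  cases s with
  | tp x u v =>
    simp only [stOK, Bool.and_eq_true] at hs
    obtain ⟨⟨⟨hu, hv⟩, hx⟩, hlt⟩ := hs
    have hu' := List.elem_iff.1 hu
    have hv' := List.elem_iff.1 hv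
    have hxe : tv u v = x := beq_iff.1 hx
    refine ⟨blt_iff.1 hlt, 1, one_mem _, by rw [one_mul]; exact hψ, ?_⟩
    intro p hp
    rw [one_mul]
    rcases List.mem_cons.1 hp with hp | hp
    · have hp' : p = x := hp
      rw [hp', ← hxe, ← tn_conj (hpts u hu') (hpts v hv'), map_mul, map_mul, hfix u hu', hfix v hv']
    · exact hfix p hp
  | lv L =>
    have hb : L.b < NN := by
      simp only [stOK, lvOK, frc_eq, Bool.and_eq_true] at hs
      exact blt_iff.1 hs.1.1.1.1.1.1.1
    exact ⟨hb, lv_sound C hs hpts hψ hfix⟩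

/-- A chain. -/
theorem ch_sound (C : Ctx 𝒞 𝒜 CM DM Ra M τ τv) : ∀ (l : List St) (pts : List ℕ), chOK CM DM Ra M τv l pts = true →
    (∀ p ∈ pts, p < NN) → ∀ ψ ∈ 𝒜, (∀ p ∈ pts, ψ (tn p) = tn p) →
    ∃ ρ ∈ 𝒞, ρ * ψ ∈ 𝒜 ∧ ∀ p ∈ chPts l pts, (ρ * ψ) (tn p) = tn p := by
  intro l
  induction l with
  | nil =>
    intro pts _ _ ψ hψ hf
    exact ⟨1, one_mem _, by rw [one_mul]; exact hψ, by rw [one_mul]; exact hf⟩
  | cons s r ih =>
    intro pts h hpts ψ hψ hf
    simp only [chOK, Bool.and_eq_true] at h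
    obtain ⟨hlt, ρ, hρ, hρψ, hρf⟩ := st_sound C h.1 hpts hψ hf
    have hpts' : ∀ p ∈ s.pt :: pts, p < NN := by
      intro p hp
      rcases List.mem_cons.1 hp with rfl | hp
      · exact hlt
      · exact hpts p hp
    obtain ⟨ρ', hρ', hρψ', hρf'⟩ := ih (s.pt :: pts) h.2 hpts' _ hρψ hρf
    refine ⟨ρ' * ρ, mul_mem hρ' hρ, ?_, ?_⟩
    · rw [mul_assoc]
      exact hρψ'
    · rw [mul_assoc]
      exact hρf'

/-! ### The letters -/

/-- An automorphism fixing the letters is trivial. -/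
theorem eq_one_of_letters {ψ : MulAut G0} (h : ∀ k, k < 9 → ψ (tn (lab k)) = tn (lab k)) : ψ = 1 := by
  have hL : ∀ x, ψ (L x) = L x := by
    intro x
    by_cases hx : x < 9
    · rw [← T_letter hx]
      exact h x hx
    · have h1 : L x = 1 := elX_ge _ _ (by
        have : Fi22a.D.lets.length = 9 := by decide +kernel
        omega)
      rw [h1, map_one]
  ext g
  obtain ⟨u, rfl⟩ := exists_word g
  show ψ (wordEl L u) = wordEl L u
  induction u with
  | nil => simp
  | cons x r ih => rw [wordEl_cons, map_mul, ih, hL]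

end Cfsg.Agent.Lib.Fischer.M22.Rows.Out
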