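/-
The elliptic quadratic form of dimension six over the field with two elements, with vectors coded by natural numbers
below `64`: reflections and the centre of the isometry group.
-/
import Mathlib
import Cfsg.Agent.Lib.Classical.Orth.Fischer
import Cfsg.Agent.Lib.Classical.Orth.Lines
import Cfsg.Agent.Lib.Classical.Orth.Models

set_option autoImplicit false

namespace Cfsg.Agent.Lib.Fischer.M22.Rows.O6Vec

open Matrix QuadraticMap Module
open Cfsg.Agent.Lib.Classical.Orth.Basic
open Cfsg.Agent.Lib.Classical.Orth.Models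
open Cfsg.Agent.Lib.Classical.Orth.Fischer

/-- The coordinates. -/
abbrev I6 : Type := (Fin 2 ⊕ Fin 2) ⊕ Fin 2

/-- The vector space. -/
abbrev V : Type := I6 → ZMod 2

/-- The quadratic form. -/
noncomputable abbrev Q : QuadraticForm (ZMod 2) V := minusForm 2 (ZMod 2) 1 1

theorem Q_nd : (polarBilin Q).Nondegenerate := minusForm_nondegenerate 2 1 1 (by decide)

/-- The isometry group. -/
abbrev Oq : Type := ↥(Cfsg.isometryGroup (ZMod 2) (⇑Q))

/-- The bit of a coordinate. -/
def idx : I6 → ℕ
  | .inl (.inl i) => i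
  | .inl (.inr i) => i + 2
  | .inr i => i + 4

/-- The vector of a code. -/
def bitv (n : ℕ) : V := fun i => if n.testBit (idx i) then 1 else 0

/-- The code of a vector. -/
def enc (v : V) : ℕ :=
  (v (.inl (.inl 0))).val + 2 * (v (.inl (.inl 1))).val + 4 * (v (.inl (.inr 0))).val + 8 * (v (.inl (.inr 1))).val +
    16 * (v (.inr 0)).val + 32 * (v (.inr 1)).val

theorem bitv_enc : ∀ v : V, bitv (enc v) = v ∧ enc v < 64 := by decide +kernel

theorem enc_bitv : ∀ n : Fin 64, enc (bitv n) = n := by decide +kernel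

theorem bitv_inj {n m : ℕ} (hn : n < 64) (hm : m < 64) (h : bitv n = bitv m) : n = m := by
  have h1 := enc_bitv ⟨n, hn⟩
  have h2 := enc_bitv ⟨m, hm⟩
  simp only at h1 h2
  rw [← h1, ← h2, h]

theorem bitv_surj (v : V) : ∃ n, n < 64 ∧ bitv n = v := ⟨enc v, (bitv_enc v).2, (bitv_enc v).1⟩

/-- The value of the form on a code. -/
def qb (n : ℕ) : Bool :=
  xor (xor (n.testBit 0 && n.testBit 2) (n.testBit 1 && n.testBit 3))
    (xor (xor (n.testBit 4) (n.testBit 4 && n.testBit 5)) (n.testBit 5))

/-- The action on codes. -/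
def op (n m : ℕ) : ℕ := Bool.rec m (n ^^^ m) (qb (n ^^^ m))

theorem op_lt {n m : ℕ} (hn : n < 64) (hm : m < 64) : op n m < 64 := by
  unfold op
  cases qb (n ^^^ m) with
  | false => exact hm
  | true => exact Nat.xor_lt_two_pow (n := 6) hn hm

theorem qb_op {n m : ℕ} (hm : qb m = true) : qb (op n m) = true := by
  unfold op
  cases h : qb (n ^^^ m) with
  | false => exact hm
  | true => exact h

theorem Q_key : ∀ a b c d e f : Bool,
    (if a then (1 : ZMod 2) else 0) * (if c then 1 else 0) + (if b then (1 : ZMod 2) else 0) * (if d then 1 else 0) +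
      ((if e then (1 : ZMod 2) else 0) ^ 2 + 1 * (if e then (1 : ZMod 2) else 0) * (if f then 1 else 0) + 1 * (if f then (1 : ZMod 2) else 0) ^ 2) =
      if xor (xor (a && c) (b && d)) (xor (xor e (e && f)) f) then 1 else 0 := by
  decide

theorem Q_bitv (n : ℕ) : Q (bitv n) = if qb n then 1 else 0 := by
  rw [coe_minusForm_apply]
  unfold Cfsg.quadFormMinus
  rw [Fin.sum_univ_two]
  exact Q_key _ _ _ _ _ _

theorem Q_one {n : ℕ} (h : qb n = true) : Q (bitv n) = 1 := by
  rw [Q_bitv, if_pos h]

theorem Q_zero {n : ℕ} (h : qb n = false) : Q (bitv n) = 0 := by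
  rw [Q_bitv, if_neg (by simp [h])]

theorem Q_ne {n : ℕ} (h : qb n = true) : Q (bitv n) ≠ 0 := by
  rw [Q_one h]
  exact one_ne_zero

theorem qb_of_ne {n : ℕ} (h : Q (bitv n) ≠ 0) : qb n = true := by
  cases h1 : qb n with
  | true => rfl
  | false => exact absurd (Q_zero h1) h

theorem bitv_xor (n m : ℕ) : bitv (n ^^^ m) = bitv n + bitv m := by
  funext i
  show (if (n ^^^ m).testBit (idx i) then (1 : ZMod 2) else 0) = (if n.testBit (idx i) then 1 else 0) + (if m.testBit (idx i) then 1 else 0)
  rw [Nat.testBit_xor]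
  cases n.testBit (idx i) <;> cases m.testBit (idx i) <;> decide

/-- The reflection of a code. -/
noncomputable def refl (n : ℕ) (h : qb n = true) : Oq := reflectionIso Q (bitv n) (Q_ne h)

theorem zmod2_sub (a b : ZMod 2) : a - b = a + b := by
  revert a b
  decide

theorem polar_bitv {n m : ℕ} (hn : qb n = true) (hm : qb m = true) :
    polar (⇑Q) (bitv n) (bitv m) = Q (bitv (n ^^^ m)) := by
  rw [bitv_xor]
  show Q (bitv n + bitv m) - Q (bitv n) - Q (bitv m) = Q (bitv n + bitv m)
  rw [Q_one hn, Q_one hm]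
  generalize Q (bitv n + bitv m) = a
  revert a
  decide

theorem act_refl {n m : ℕ} (hn : qb n = true) (hm : qb m = true) :
    act (refl n hn) (bitv m) = bitv (op n m) := by
  unfold refl
  rw [reflectionIso_act, Q_one hn, polar_bitv hn hm, inv_one, one_mul]
  unfold op
  cases h : qb (n ^^^ m) with
  | false =>
    rw [Q_zero h, zero_smul, sub_zero]
  | true =>
    rw [Q_one h, one_smul, bitv_xor]
    funext i
    show bitv m i - bitv n i = bitv n i + bitv m i
    rw [zmod2_sub, add_comm]

theorem refl_mul_self {n : ℕ} (h : qb n = true) : refl n h * refl n h = 1 := reflectionIso_mul_self _ _ _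

theorem refl_conj {n m : ℕ} (hn : qb n = true) (hm : qb m = true) :
    refl n hn * refl m hm * refl n hn = refl (op n m) (qb_op hm) :=
  conj_reflection_eq _ _ _ _ _ _ (act_refl hn hm)

theorem zmod2_cases (c : ZMod 2) : c = 0 ∨ c = 1 := by
  revert c
  decide

theorem refl_inj {n m : ℕ} (hn : qb n = true) (hm : qb m = true) (hn' : n < 64) (hm' : m < 64)
    (h : refl n hn = refl m hm) : n = m := by
  have h1 := Cfsg.Agent.Lib.Classical.Orth.Lines.span_eq_of_reflectionIso_eq Q_nd (Q_ne hn) (Q_ne hm) h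
  have h2 : bitv n ∈ Submodule.span (ZMod 2) {bitv m} := by
    rw [← h1]
    exact Submodule.mem_span_singleton_self _
  obtain ⟨c, hc⟩ := Submodule.mem_span_singleton.1 h2
  apply bitv_inj hn' hm'
  rcases zmod2_cases c with rfl | rfl
  · exfalso
    rw [zero_smul] at hc
    apply Q_ne hn
    rw [← hc]
    exact QuadraticMap.map_zero Q
  · rw [← hc, one_smul]

/-- The reflections. -/
def D2 : Set Oq := {g | (((g : GL I6 (ZMod 2)) : Matrix I6 I6 (ZMod 2)) - 1).rank = 1}

theorem refl_mem {n : ℕ} (h : qb n = true) : refl n h ∈ D2 := rank_reflection Q_nd _ _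

theorem exists_refl {g : Oq} (hg : g ∈ D2) : ∃ n, n < 64 ∧ ∃ h : qb n = true, g = refl n h := by
  obtain ⟨b, hb, rfl⟩ := eq_reflection_of_rank Q_nd g hg
  obtain ⟨n, hn, rfl⟩ := bitv_surj b
  exact ⟨n, hn, qb_of_ne hb, rfl⟩

theorem class_D2 : Cfsg.IsThreeTranspositionClass D2 :=
  threeTransposition Q_nd (by simp) inferInstance

/-- Every code is the sum of two nonsingular codes. -/
theorem exists_sum : ∀ n, n < 64 → ∃ a, a < 64 ∧ qb a = true ∧ qb (a ^^^ n) = true := by
  decide +kernel

theorem center_Oq : Subgroup.center Oq = ⊥ := by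
  rw [eq_bot_iff]
  intro z hz
  rw [Subgroup.mem_center_iff] at hz
  have h1 : ∀ n, qb n = true → act z (bitv n) = bitv n := by
    intro n hq
    have hx : Q (act z (bitv n)) ≠ 0 := by
      rw [Q_act]
      exact Q_ne hq
    have h2 : z * reflectionIso Q (bitv n) (Q_ne hq) * z⁻¹ = reflectionIso Q (act z (bitv n)) hx :=
      conj_reflectionIso z _ _
    have h3 : z * reflectionIso Q (bitv n) (Q_ne hq) * z⁻¹ = reflectionIso Q (bitv n) (Q_ne hq) := by
      rw [← hz]
      group
    have h5 := Cfsg.Agent.Lib.Classical.Orth.Lines.span_eq_of_reflectionIso_eq Q_nd hx (Q_ne hq) (h2.symm.trans h3)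
    have h6 : act z (bitv n) ∈ Submodule.span (ZMod 2) {bitv n} := by
      rw [← h5]
      exact Submodule.mem_span_singleton_self _
    obtain ⟨c, hc⟩ := Submodule.mem_span_singleton.1 h6
    rcases zmod2_cases c with rfl | rfl
    · exfalso
      apply hx
      rw [← hc, zero_smul]
      exact QuadraticMap.map_zero Q
    · rw [← hc, one_smul]
  have h8 : ∀ n, n < 64 → act z (bitv n) = bitv n := by
    intro n hn
    obtain ⟨a, ha, hqa, hqb⟩ := exists_sum n hn
    have h9 : bitv n = bitv a + bitv (a ^^^ n) := by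
      rw [← bitv_xor, ← Nat.xor_assoc, Nat.xor_self, Nat.zero_xor]
    rw [h9, act_add, h1 a hqa, h1 _ hqb]
  rw [Subgroup.mem_bot]
  apply ext_act
  intro x
  obtain ⟨n, hn, rfl⟩ := bitv_surj x
  rw [h8 n hn, act_one]

end Cfsg.Agent.Lib.Fischer.M22.Rows.O6Vec
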