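/-
The fixed points of the third automorphism of the explicit model of type M(22): the normal elementary abelian subgroup of
order 64.
-/
import Mathlib
import Cfsg.Agent.Lib.Fischer.M22.Rows.Out.Fix2
import Cfsg.Agent.Lib.Fischer.M22.Rows.Out.O6Data
import Cfsg.Agent.Lib.Fischer.M22.Rows.Out.O6Vec

set_option autoImplicit false
set_option maxRecDepth 100000

namespace Cfsg.Agent.Lib.Fischer.M22.Rows.Out

open Cfsg Cfsg.Agent.Lib.Compute.ToddCoxeterCore Cfsg.Agent.Lib.Compute.TCChain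
open Cfsg.Agent.Lib.Fischer.M22.Explicit Cfsg.Agent.Lib.Fischer.M22.Rows

/-! ### Readers -/

/-- The partner of a label. -/
noncomputable def prv (x : ℕ) : ℕ := Nat.land (Nat.shiftRight prT (Nat.mul x (nat_lit 12))) (nat_lit 4095)

/-- The vector of a label. -/
noncomputable def nub (x : ℕ) : ℕ := Nat.land (Nat.shiftRight nuBT (Nat.mul x (nat_lit 6))) (nat_lit 63)

/-- A label of a vector. -/
noncomputable def secv (n : ℕ) : ℕ := Nat.land (Nat.shiftRight secT (Nat.mul n (nat_lit 12))) (nat_lit 4095)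

/-- The coordinates of a vector. -/
noncomputable def cdv (n : ℕ) : ℕ := Nat.land (Nat.shiftRight cdT (Nat.mul n (nat_lit 6))) (nat_lit 63)

/-- The label of a generator. -/
def bI (i : ℕ) : ℕ := BU.getD i (nat_lit 0)

/-- The word of the product of a label and its partner. -/
noncomputable def gW (u : ℕ) : List ℕ := [prv u + 16, u + 16]

/-- The word of a code. -/
noncomputable def EwL (c : ℕ) : List ℕ := ((List.range (nat_lit 6)).filter (fun i => tb c i)).flatMap (fun i => gW (bI i))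

/-- The product of a label and its partner. -/
noncomputable def eL (u : ℕ) : G0 := tn u * tn (prv u)

/-- The element of a code. -/
noncomputable def EE (c : ℕ) : G0 := wE (EwL c)

theorem wE_gW (u : ℕ) : wE (gW u) = eL u := O8.wE_two' _ _

/-! ### Checks on the labels -/

theorem chkMF : allFrom (fun u => bEq (tb MB u) (FL.elem u)) (nat_lit 3510) (nat_lit 0) = true := by decide +kernel

theorem chkF1 : FL.all (fun x => blt x (nat_lit 3510) && (FL.elem (prv x) && (Nat.beq (prv (prv x)) x && ((!(Nat.beq (prv x) x)) &&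
    (Nat.beq (nub (prv x)) (nub x) && (N6.elem (nub x) && Nat.beq (tv x (prv x)) (prv x))))))) = true := by decide +kernel

theorem chkF2 : FL.all (fun x => FL.all (fun y => FL.elem (tv x y) && (Nat.beq (nub (tv x y)) (O6Vec.op (nub x) (nub y)) &&
    Nat.beq (prv (tv x y)) (tv x (prv y))))) = true := by decide +kernel

theorem chkF3 : FL.all (fun x => FL.all (fun y => (!(Nat.beq (nub x) (nub y))) || (Nat.beq y x || Nat.beq y (prv x)))) = true := by
  decide +kernel

theorem chkF4 : N6.all (fun n => FL.elem (secv n) && (Nat.beq (nub (secv n)) n && (O6Vec.qb n && blt n (nat_lit 64)))) = true := by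
  decide +kernel

theorem chkF5 : allFrom (fun n => (!(O6Vec.qb n)) || N6.elem n) (nat_lit 64) (nat_lit 0) = true := by decide +kernel

theorem chkOI : N6.all (fun n => N6.all (fun m => N6.elem (O6Vec.op n m) && Nat.beq (O6Vec.op n (O6Vec.op n m)) m)) = true := by
  decide +kernel

/-- Every nonzero product acts nontrivially on the vectors. -/
theorem chkOD : N6.all (fun n => N6.all (fun m => Nat.beq n m || N6.any (fun y => !(Nat.beq (O6Vec.op n (O6Vec.op m y)) y)))) = true := by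
  decide +kernel

theorem chkON : N6.all (fun n => N6.any (fun y => !(Nat.beq (O6Vec.op n y) y))) = true := by decide +kernel

/-- There are no twins. -/
theorem chkOT : N6.all (fun n => N6.all (fun m => Nat.beq n m || ((!(Nat.beq (O6Vec.op n m) m)) ||
    N6.any (fun k => (!(Nat.beq (O6Vec.op n k) k)) && Nat.beq (O6Vec.op m k) k)))) = true := by decide +kernel

section F
variable {x y : ℕ}

theorem mem_FL_of_tb {x : ℕ} (h : x < NN) (hm : tb MB x = true) : x ∈ FL := by
  have h1 := bEq_true (allFrom_spec chkMF x (Nat.zero_le _) (by show x < 0 + 3510; exact h))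
  rw [hm] at h1
  exact List.elem_iff.1 h1.symm

theorem tb_of_FL (h : x ∈ FL) (hlt : x < NN) : tb MB x = true := by
  have h1 := bEq_true (allFrom_spec chkMF x (Nat.zero_le _) (by show x < 0 + 3510; exact hlt))
  rw [h1]
  exact List.elem_iff.2 h

theorem F1_spec (h : x ∈ FL) : x < NN ∧ prv x ∈ FL ∧ prv (prv x) = x ∧ prv x ≠ x ∧ nub (prv x) = nub x ∧ nub x ∈ N6 ∧ tv x (prv x) = prv x := by
  have h1 := List.all_eq_true.1 chkF1 x h
  simp only [Bool.and_eq_true, Bool.not_eq_true'] at h1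
  obtain ⟨a, b, c, d, e, f, g⟩ := h1
  refine ⟨blt_iff.1 a, List.elem_iff.1 b, beq_iff.1 c, ?_, beq_iff.1 e, List.elem_iff.1 f, beq_iff.1 g⟩
  intro h2
  rw [h2, Nat.beq_refl] at d
  cases d

theorem FL_lt (h : x ∈ FL) : x < NN := (F1_spec h).1

theorem F2_spec (hx : x ∈ FL) (hy : y ∈ FL) : tv x y ∈ FL ∧ nub (tv x y) = O6Vec.op (nub x) (nub y) ∧ prv (tv x y) = tv x (prv y) := by
  have h1 := List.all_eq_true.1 (List.all_eq_true.1 chkF2 x hx) y hy
  simp only [Bool.and_eq_true] at h1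
  exact ⟨List.elem_iff.1 h1.1, beq_iff.1 h1.2.1, beq_iff.1 h1.2.2⟩

theorem F3_spec (hx : x ∈ FL) (hy : y ∈ FL) (h : nub x = nub y) : y = x ∨ y = prv x := by
  have h1 := List.all_eq_true.1 (List.all_eq_true.1 chkF3 x hx) y hy
  rw [Bool.or_eq_true, Bool.or_eq_true, h, Nat.beq_refl] at h1
  rcases h1 with h1 | h1 | h1
  · cases h1
  · exact Or.inl (beq_iff.1 h1)
  · exact Or.inr (beq_iff.1 h1)

theorem F4_spec {n : ℕ} (hn : n ∈ N6) : secv n ∈ FL ∧ nub (secv n) = n ∧ O6Vec.qb n = true ∧ n < 64 := by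
  have h1 := List.all_eq_true.1 chkF4 n hn
  simp only [Bool.and_eq_true] at h1
  exact ⟨List.elem_iff.1 h1.1, beq_iff.1 h1.2.1, h1.2.2.1, blt_iff.1 h1.2.2.2⟩

theorem mem_N6 {n : ℕ} (hlt : n < 64) (hq : O6Vec.qb n = true) : n ∈ N6 := by
  have h1 := allFrom_spec chkF5 n (Nat.zero_le _) (by show n < 0 + 64; exact hlt)
  rw [hq] at h1
  simp only [Bool.not_true, Bool.false_or] at h1
  exact List.elem_iff.1 h1

theorem op_N6 {n m : ℕ} (hn : n ∈ N6) (hm : m ∈ N6) : O6Vec.op n m ∈ N6 := by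
  have h1 := List.all_eq_true.1 (List.all_eq_true.1 chkOI n hn) m hm
  rw [Bool.and_eq_true] at h1
  exact List.elem_iff.1 h1.1

theorem op_op {n m : ℕ} (hn : n ∈ N6) (hm : m ∈ N6) : O6Vec.op n (O6Vec.op n m) = m := by
  have h1 := List.all_eq_true.1 (List.all_eq_true.1 chkOI n hn) m hm
  rw [Bool.and_eq_true] at h1
  exact beq_iff.1 h1.2

theorem tv_lt' {u c : ℕ} (hu : u ∈ FL) (hc : c ∈ FL) : tv u c ∈ FL := (F2_spec hu hc).1

theorem comm_pr (h : x ∈ FL) : Commute (tn x) (tn (prv x)) := by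
  obtain ⟨h1, h2, -, -, -, -, h7⟩ := F1_spec h
  have h3 := tn_conj h1 (FL_lt h2)
  rw [h7] at h3
  show tn x * tn (prv x) = tn (prv x) * tn x
  calc tn x * tn (prv x) = tn x * tn (prv x) * (tn x * tn x) := by rw [tn_sq, mul_one]
    _ = (tn x * tn (prv x) * tn x) * tn x := by simp only [mul_assoc]
    _ = _ := by rw [h3]

theorem eL_sq (h : x ∈ FL) : eL x * eL x = 1 := by
  unfold eL
  have hc := (comm_pr h).eq
  calc tn x * tn (prv x) * (tn x * tn (prv x)) = tn x * (tn (prv x) * tn x) * tn (prv x) := by simp only [mul_assoc]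
    _ = tn x * (tn x * tn (prv x)) * tn (prv x) := by rw [hc]
    _ = (tn x * tn x) * (tn (prv x) * tn (prv x)) := by simp only [mul_assoc]
    _ = 1 := by rw [tn_sq, tn_sq, one_mul]

theorem eL_conj (hx : x ∈ FL) (hy : y ∈ FL) : tn x * eL y * tn x = eL (tv x y) := by
  unfold eL
  obtain ⟨h1, -⟩ := F1_spec hx
  have hp := (F1_spec hy).2.1
  rw [(F2_spec hx hy).2.2, ← tn_conj h1 (FL_lt hy), ← tn_conj h1 (FL_lt hp)]
  calc tn x * (tn y * tn (prv y)) * tn x = tn x * tn y * 1 * tn (prv y) * tn x := by simp only [mul_assoc, mul_one]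
    _ = tn x * tn y * (tn x * tn x) * tn (prv y) * tn x := by rw [tn_sq]
    _ = _ := by simp only [mul_assoc]

end F

/-! ### The subgroup -/

/-- The subgroup. -/
noncomputable def O0 : Subgroup G0 := Subgroup.closure {g | ∃ i, i < 6 ∧ g = eL (bI i)}

theorem bI_FL : (List.range 6).all (fun i => FL.elem (bI i)) = true := by decide +kernel

theorem bI_mem {i : ℕ} (hi : i < 6) : bI i ∈ FL := List.elem_iff.1 (List.all_eq_true.1 bI_FL i (List.mem_range.2 hi))

theorem gi_mem {i : ℕ} (hi : i < 6) : eL (bI i) ∈ O0 := Subgroup.subset_closure ⟨i, hi, rfl⟩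

theorem EE_mem_aux (l : List ℕ) (hl : ∀ i ∈ l, i < 6) : wE (l.flatMap (fun i => gW (bI i))) ∈ O0 := by
  induction l with
  | nil => exact one_mem _
  | cons x r ih =>
    rw [List.flatMap_cons, wE_append, wE_gW]
    exact mul_mem (ih (fun y hy => hl y (by simp [hy]))) (gi_mem (hl x (by simp)))

theorem EE_mem (c : ℕ) : EE c ∈ O0 := by
  apply EE_mem_aux
  intro i hi
  obtain ⟨h1, -⟩ := List.mem_filter.1 hi
  exact List.mem_range.1 h1

theorem chkG1 : FL.all (fun x => blt (cdv (nub x)) (nat_lit 64) && wEq (gW x) (EwL (cdv (nub x)))) = true := by decide +kernel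

theorem eL_eq_EE {x : ℕ} (hx : x ∈ FL) : eL x = EE (cdv (nub x)) := by
  have h := List.all_eq_true.1 chkG1 x hx
  rw [Bool.and_eq_true] at h
  rw [← wE_gW]
  exact wE_eq h.2

theorem eL_mem {x : ℕ} (hx : x ∈ FL) : eL x ∈ O0 := by
  rw [eL_eq_EE hx]
  exact EE_mem _

/-- Multiplication by a generator. -/
noncomputable def xorB (c i : ℕ) : ℕ := Nat.xor c (Nat.shiftLeft (nat_lit 1) i)

theorem chkG2 : allFrom (fun c => (List.range (nat_lit 6)).all (fun i => blt (xorB c i) (nat_lit 64) &&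
    wEq (gW (bI i) ++ EwL c) (EwL (xorB c i)))) (nat_lit 64) (nat_lit 0) = true := by decide +kernel

theorem EwL_zero : EwL 0 = [] := by decide +kernel

theorem EE_zero : EE 0 = 1 := by
  unfold EE
  rw [EwL_zero]
  rfl

theorem EE_mul {c i : ℕ} (hc : c < 64) (hi : i < 6) : xorB c i < 64 ∧ EE c * eL (bI i) = EE (xorB c i) := by
  have h := List.all_eq_true.1 (allFrom_spec chkG2 c (Nat.zero_le _) (by show c < 0 + 64; exact hc)) i (List.mem_range.2 hi)
  rw [Bool.and_eq_true] at h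
  refine ⟨blt_iff.1 h.1, ?_⟩
  rw [← wE_gW]
  unfold EE
  rw [← wE_append]
  exact wE_eq h.2

theorem gi_inv {i : ℕ} (hi : i < 6) : (eL (bI i))⁻¹ = eL (bI i) := inv_eq_of_mul_eq_one_left (eL_sq (bI_mem hi))

theorem exists_code {x : G0} (hx : x ∈ O0) : ∃ c, c < 64 ∧ x = EE c := by
  induction hx using Subgroup.closure_induction_right with
  | one => exact ⟨0, by norm_num, EE_zero.symm⟩
  | mul_right x _ y hy ih =>
    obtain ⟨i, hi, rfl⟩ := hy
    obtain ⟨c, hc, rfl⟩ := ih
    exact ⟨_, (EE_mul hc hi).1, (EE_mul hc hi).2⟩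
  | mul_inv_cancel x _ y hy ih =>
    obtain ⟨i, hi, rfl⟩ := hy
    obtain ⟨c, hc, rfl⟩ := ih
    rw [gi_inv hi]
    exact ⟨_, (EE_mul hc hi).1, (EE_mul hc hi).2⟩

theorem chkW : allFrom (fun c => wOK (EwL c)) (nat_lit 64) (nat_lit 0) = true := by decide +kernel

theorem chkReg : allFrom (fun c => allFrom (fun c' => Nat.beq c c' || !(Nat.beq (run aV (EwL c) regQ) (run aV (EwL c') regQ))) (nat_lit 64) (nat_lit 0))
    (nat_lit 64) (nat_lit 0) = true := by decide +kernel

theorem EE_inj {c c' : ℕ} (hc : c < 64) (hc' : c' < 64) (h : EE c = EE c') : c = c' := by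
  have h1 := allFrom_spec (allFrom_spec chkReg c (Nat.zero_le _) (by show c < 0 + 64; exact hc)) c' (Nat.zero_le _) (by show c' < 0 + 64; exact hc')
  rw [Bool.or_eq_true] at h1
  rcases h1 with h1 | h1
  · exact beq_iff.1 h1
  · exfalso
    have hok := allFrom_spec chkW c (Nat.zero_le _) (by show c < 0 + 64; exact hc)
    have hok' := allFrom_spec chkW c' (Nat.zero_le _) (by show c' < 0 + 64; exact hc')
    have hq : regQ < NN := by decide
    have h2 := wE_val hok ⟨regQ, hq⟩
    have h3 := wE_val hok' ⟨regQ, hq⟩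
    have h4 : run aV (EwL c) regQ = run aV (EwL c') regQ := by
      have h5 : wE (EwL c) = wE (EwL c') := h
      rw [← h2, ← h3, h5]
    rw [h4, Nat.beq_refl] at h1
    cases h1

theorem card_O0 : Nat.card O0 = 64 := by
  have hbij : Function.Bijective (fun c : Fin 64 => (⟨EE c, EE_mem c⟩ : O0)) := by
    constructor
    · intro u v huv
      exact Fin.ext (EE_inj u.2 v.2 (congrArg Subtype.val huv))
    · rintro ⟨g, hg⟩
      obtain ⟨c, hc, rfl⟩ := exists_code hg
      exact ⟨⟨c, hc⟩, rfl⟩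
  rw [← Nat.card_eq_of_bijective _ hbij]
  simp

theorem chkCm : (List.range 6).all (fun i => (List.range 6).all (fun j => wEq (gW (bI i) ++ gW (bI j)) (gW (bI j) ++ gW (bI i)))) = true := by
  decide +kernel

theorem gi_comm {i j : ℕ} (hi : i < 6) (hj : j < 6) : eL (bI i) * eL (bI j) = eL (bI j) * eL (bI i) := by
  have h := wE_eq (List.all_eq_true.1 (List.all_eq_true.1 chkCm i (List.mem_range.2 hi)) j (List.mem_range.2 hj))
  rw [wE_append, wE_append, wE_gW, wE_gW] at h
  exact h.symm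

theorem O0_comm {x y : G0} (hx : x ∈ O0) (hy : y ∈ O0) : x * y = y * x := by
  have h1 : O0 ≤ Subgroup.centralizer {g | ∃ i, i < 6 ∧ g = eL (bI i)} := by
    rw [O0, Subgroup.closure_le]
    rintro _ ⟨i, hi, rfl⟩
    rw [SetLike.mem_coe, Subgroup.mem_centralizer_iff]
    rintro _ ⟨j, hj, rfl⟩
    exact gi_comm hj hi
  have h2 : O0 ≤ Subgroup.centralizer (O0 : Set G0) := by
    conv_lhs => rw [O0]
    rw [Subgroup.closure_le]
    rintro _ ⟨i, hi, rfl⟩
    rw [SetLike.mem_coe, Subgroup.mem_centralizer_iff]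
    intro z hz
    exact ((Subgroup.mem_centralizer_iff.1 (h1 hz)) _ ⟨i, hi, rfl⟩).symm
  exact (Subgroup.mem_centralizer_iff.1 (h2 hy) x hx)

theorem O0_sq {x : G0} (hx : x ∈ O0) : x ^ 2 = 1 := by
  induction hx using Subgroup.closure_induction_right with
  | one => simp
  | mul_right x hx y hy ih =>
    obtain ⟨i, hi, rfl⟩ := hy
    rw [pow_two] at ih ⊢
    have h := O0_comm hx (gi_mem hi)
    calc x * eL (bI i) * (x * eL (bI i)) = x * (eL (bI i) * x) * eL (bI i) := by simp only [mul_assoc]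
      _ = x * (x * eL (bI i)) * eL (bI i) := by rw [h]
      _ = (x * x) * (eL (bI i) * eL (bI i)) := by simp only [mul_assoc]
      _ = 1 := by rw [ih, eL_sq (bI_mem hi), one_mul]
  | mul_inv_cancel x hx y hy ih =>
    obtain ⟨i, hi, rfl⟩ := hy
    rw [gi_inv hi]
    rw [pow_two] at ih ⊢
    have h := O0_comm hx (gi_mem hi)
    calc x * eL (bI i) * (x * eL (bI i)) = x * (eL (bI i) * x) * eL (bI i) := by simp only [mul_assoc]
      _ = x * (x * eL (bI i)) * eL (bI i) := by rw [h]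
      _ = (x * x) * (eL (bI i) * eL (bI i)) := by simp only [mul_assoc]
      _ = 1 := by rw [ih, eL_sq (bI_mem hi), one_mul]

theorem O0_elem : IsElementaryAbelian 2 O0 := by
  refine ⟨⟨⟨?_⟩⟩, fun a ha => O0_sq ha⟩
  rintro ⟨a, ha⟩ ⟨b, hb⟩
  exact Subtype.ext (O0_comm ha hb)

/-! ### Inside the fixed points -/

theorem tn_mem_RB {x : ℕ} (hx : x ∈ FL) : tn x ∈ RM MB := tn_mem_RM (FL_lt hx) (tb_of_FL hx (FL_lt hx))

theorem eL_mem_RB {x : ℕ} (hx : x ∈ FL) : eL x ∈ RM MB := mul_mem (tn_mem_RB hx) (tn_mem_RB (F1_spec hx).2.1)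

theorem O0_le_RB : O0 ≤ RM MB := by
  rw [O0, Subgroup.closure_le]
  rintro _ ⟨i, hi, rfl⟩
  exact eL_mem_RB (bI_mem hi)

theorem tn_norm {x : ℕ} (hx : x ∈ FL) {o : G0} (ho : o ∈ O0) : tn x * o * tn x ∈ O0 := by
  induction ho using Subgroup.closure_induction with
  | mem o ho =>
    obtain ⟨i, hi, rfl⟩ := ho
    rw [eL_conj hx (bI_mem hi)]
    exact eL_mem (tv_lt' hx (bI_mem hi))
  | one =>
    rw [mul_one, tn_sq]
    exact one_mem _
  | mul a b _ _ iha ihb =>
    have e : tn x * (a * b) * tn x = (tn x * a * tn x) * (tn x * b * tn x) := by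
      calc tn x * (a * b) * tn x = tn x * a * 1 * b * tn x := by simp only [mul_assoc, mul_one]
        _ = tn x * a * (tn x * tn x) * b * tn x := by rw [tn_sq]
        _ = _ := by simp only [mul_assoc]
    rw [e]
    exact mul_mem iha ihb
  | inv a _ iha =>
    have e : tn x * a⁻¹ * tn x = (tn x * a * tn x)⁻¹ := by
      have hi : (tn x)⁻¹ = tn x := inv_eq_of_mul_eq_one_left (tn_sq x)
      rw [mul_inv_rev, mul_inv_rev, hi]
      group
    rw [e]
    exact inv_mem iha

theorem RB_norm {g : G0} (hg : g ∈ RM MB) : (∀ o ∈ O0, g * o * g⁻¹ ∈ O0) ∧ (∀ o ∈ O0, g⁻¹ * o * g ∈ O0) := by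
  induction hg using Subgroup.closure_induction with
  | mem g hg =>
    obtain ⟨u, hu, hm, rfl⟩ := hg
    have hi : (tn u)⁻¹ = tn u := inv_eq_of_mul_eq_one_left (tn_sq u)
    rw [hi]
    exact ⟨fun o ho => tn_norm (mem_FL_of_tb hu hm) ho, fun o ho => tn_norm (mem_FL_of_tb hu hm) ho⟩
  | one =>
    constructor <;>
    · intro o ho
      simpa using ho
  | mul a b _ _ iha ihb =>
    constructor
    · intro o ho
      have e : a * b * o * (a * b)⁻¹ = a * (b * o * b⁻¹) * a⁻¹ := by group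
      rw [e]
      exact iha.1 _ (ihb.1 o ho)
    · intro o ho
      have e : (a * b)⁻¹ * o * (a * b) = b⁻¹ * (a⁻¹ * o * a) * b := by group
      rw [e]
      exact ihb.2 _ (iha.2 o ho)
  | inv a _ iha =>
    constructor
    · intro o ho
      rw [inv_inv]
      exact iha.2 o ho
    · intro o ho
      rw [inv_inv]
      exact iha.1 o ho

end Cfsg.Agent.Lib.Fischer.M22.Rows.Out
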