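/-
The fixed points of the third automorphism of the explicit model of type M(22): the quotient by the normal elementary abelian
subgroup of order 64 is the isometry group of the elliptic quadratic form in dimension six over the field with two elements, and
this normal subgroup is the largest normal 2-subgroup.
-/
import Mathlib
import Cfsg.Agent.Lib.Fischer.M22.Rows.Out.O6a
import Cfsg.Agent.Lib.Fischer.M22.Compare
import Cfsg.Agent.Lib.Basic.PCore

set_option autoImplicit false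
set_option maxRecDepth 100000

namespace Cfsg.Agent.Lib.Fischer.M22.Rows.Out

open Cfsg Cfsg.Agent.Lib.Fischer.Basic
open Cfsg.Agent.Lib.Compute.ToddCoxeterCore Cfsg.Agent.Lib.Compute.TCChain
open Cfsg.Agent.Lib.Fischer.M22.Explicit Cfsg.Agent.Lib.Fischer.M22.Rows
open Cfsg.Agent.Lib.Fischer.M22.Compare

/-! ### A general lemma -/

/-- In a group with 3-transpositions, a transposition commutes with its conjugate by an element of a normal 2-subgroup. -/
theorem tt_normal_two {G : Type*} [Group G] {D : Set G} (hD : TT D) {M : Subgroup G} (hM : M.Normal) (hP : IsPGroup 2 M)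
    {y f : G} (hy : y ∈ M) (hf : f ∈ D) : Commute f (y * f * y⁻¹) := by
  have hf' := hD.conj y f hf
  set g := y * f * y⁻¹ with hg
  have hff : f * f = 1 := hD.sq f hf
  have hgg : g * g = 1 := hD.sq g hf'
  rcases hD.br f hf g hf' with h | h
  · exact h
  · have hinv : f⁻¹ = f := inv_eq_of_mul_eq_one_left hff
    have hmem : f * g ∈ M := by
      have e : f * g = (f * y * f⁻¹) * y⁻¹ := by
        rw [hg, hinv]
        group
      rw [e]
      exact mul_mem (hM.conj_mem' y hy f⁻¹ |> fun h1 => by simpa using h1) (inv_mem hy)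
    obtain ⟨k, hk⟩ := hP ⟨f * g, hmem⟩
    have hk' : (f * g) ^ 2 ^ k = 1 := congrArg Subtype.val hk
    have h3 : (f * g) ^ 3 = 1 := by
      calc (f * g) ^ 3 = (f * g * f) * (g * f * g) := by simp only [pow_succ, pow_zero, one_mul, mul_assoc]
        _ = (g * f * g) * (g * f * g) := by rw [h]
        _ = g * f * (g * g) * f * g := by simp only [mul_assoc]
        _ = g * (f * f) * g := by rw [hgg, mul_one]; simp only [mul_assoc]
        _ = g * g := by rw [hff, mul_one]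
        _ = 1 := hgg
    have h4 : orderOf (f * g) ∣ Nat.gcd 3 (2 ^ k) :=
      Nat.dvd_gcd (orderOf_dvd_of_pow_eq_one h3) (orderOf_dvd_of_pow_eq_one hk')
    have h5 : Nat.gcd 3 (2 ^ k) = 1 := Nat.Coprime.pow_right k (by norm_num)
    rw [h5, Nat.dvd_one, orderOf_eq_one_iff] at h4
    have h6 : f = g := by
      have h7 : f = g⁻¹ := eq_inv_of_mul_eq_one_left h4
      rw [h7]
      exact inv_eq_of_mul_eq_one_left hgg
    rw [← h6]

/-! ### The quotient -/

/-- The group of fixed points. -/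
noncomputable abbrev RB : Subgroup G0 := RM MB

/-- The normal subgroup. -/
noncomputable def O1 : Subgroup ↥RB := O0.subgroupOf RB

theorem mem_O1 {y : ↥RB} : y ∈ O1 ↔ y.1 ∈ O0 := Subgroup.mem_subgroupOf

instance O1_normal : O1.Normal := ⟨fun n hn g => by
  rw [mem_O1] at *
  exact (RB_norm g.2).1 _ hn⟩

/-- The quotient. -/
abbrev Qt : Type := ↥RB ⧸ O1

/-- The quotient map. -/
noncomputable abbrev πB : ↥RB →* Qt := QuotientGroup.mk' O1

theorem πB_eq {y y' : ↥RB} (h : y.1⁻¹ * y'.1 ∈ O0) : πB y = πB y' := by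
  apply QuotientGroup.eq.2
  exact mem_O1.2 h

theorem mem_O0_of_eq {y y' : ↥RB} (h : πB y = πB y') : y.1⁻¹ * y'.1 ∈ O0 :=
  mem_O1.1 (QuotientGroup.eq.1 h)

open _root_.Classical in
/-- The label as an element. -/
noncomputable def tR (x : ℕ) : ↥RB := if h : tn x ∈ RB then ⟨tn x, h⟩ else 1

theorem tR_val {x : ℕ} (hx : x ∈ FL) : (tR x).1 = tn x := by
  unfold tR
  rw [dif_pos (tn_mem_RB hx)]

/-- The class of a vector. -/
noncomputable def Bar (n : ℕ) : Qt := πB (tR (secv n))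

theorem bar_eq {y : ↥RB} {x : ℕ} (hx : x ∈ FL) (hy : y.1 = tn x) : πB y = Bar (nub x) := by
  have hn := (F1_spec hx).2.2.2.2.2.1
  obtain ⟨hs, hns, -, -⟩ := F4_spec hn
  unfold Bar
  generalize secv (nub x) = s at hs hns ⊢
  rcases F3_spec hs hx hns with h | h
  · congr 1
    apply Subtype.ext
    rw [hy, tR_val hs, h]
  · apply πB_eq
    rw [hy, tR_val hs, tn_inv', h]
    have hc := (comm_pr hs).eq
    rw [← hc]
    exact eL_mem hs

theorem Bar_conj {n m : ℕ} (hn : n ∈ N6) (hm : m ∈ N6) : Bar n * Bar m * Bar n = Bar (O6Vec.op n m) := by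
  obtain ⟨hs, hns, -, -⟩ := F4_spec hn
  obtain ⟨hs', hns', -, -⟩ := F4_spec hm
  unfold Bar
  rw [← map_mul, ← map_mul]
  have h1 := bar_eq (y := tR (secv n) * tR (secv m) * tR (secv n)) (F2_spec hs hs').1 (by
    show (tR (secv n)).1 * (tR (secv m)).1 * (tR (secv n)).1 = _
    rw [tR_val hs, tR_val hs', tn_conj (FL_lt hs) (FL_lt hs')])
  rw [h1, (F2_spec hs hs').2.1, hns, hns']
  rfl

theorem Bar_sq {n : ℕ} (hn : n ∈ N6) : Bar n * Bar n = 1 := by
  obtain ⟨hs, -⟩ := F4_spec hn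
  unfold Bar
  rw [← map_mul]
  have h1 : tR (secv n) * tR (secv n) = 1 := by
    apply Subtype.ext
    show (tR (secv n)).1 * (tR (secv n)).1 = 1
    rw [tR_val hs]
    exact tn_sq _
  rw [h1, map_one]

/-! ### The action on the vectors -/

theorem φ_tn {u x : ℕ} (hu : u < NN) (hx : x < NN) : ((φ (tn u) ⟨x, hx⟩ : Fin NN) : ℕ) = tv u x := by
  rw [show tn u = t ⟨u, hu⟩ from tn_val ⟨u, hu⟩]
  exact tv_spec ⟨u, hu⟩ ⟨x, hx⟩

/-- The elements preserving the labels and their vectors. -/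
def Pw (w : G0) : Prop := ∀ x (hx : x ∈ FL), ((φ w ⟨x, FL_lt hx⟩ : Fin NN) : ℕ) ∈ FL ∧ nub (φ w ⟨x, FL_lt hx⟩ : Fin NN) = nub x

theorem Pw_mul {w w' : G0} (h : Pw w) (h' : Pw w') : Pw (w * w') := by
  intro x hx
  obtain ⟨h1, h2⟩ := h' x hx
  obtain ⟨h3, h4⟩ := h _ h1
  rw [map_mul, Equiv.Perm.mul_apply]
  have e : (⟨((φ w' ⟨x, FL_lt hx⟩ : Fin NN) : ℕ), FL_lt h1⟩ : Fin NN) = φ w' ⟨x, FL_lt hx⟩ := rfl
  rw [e] at h3 h4
  exact ⟨h3, h4.trans h2⟩

theorem Pw_eL {u : ℕ} (hu : u ∈ FL) : Pw (eL u) := by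
  intro x hx
  obtain ⟨h1, h2, -, -, h5, h6, -⟩ := F1_spec hu
  have hp1 := F2_spec h2 hx
  have hp2 := F2_spec hu hp1.1
  have hv : ((φ (eL u) ⟨x, FL_lt hx⟩ : Fin NN) : ℕ) = tv u (tv (prv u) x) := by
    unfold eL
    rw [map_mul, Equiv.Perm.mul_apply]
    have e : φ (tn (prv u)) ⟨x, FL_lt hx⟩ = ⟨tv (prv u) x, FL_lt hp1.1⟩ := Fin.ext (φ_tn (FL_lt h2) (FL_lt hx))
    rw [e, φ_tn h1 (FL_lt hp1.1)]
  rw [hv]
  refine ⟨hp2.1, ?_⟩
  rw [hp2.2.1, hp1.2.1, h5, op_op h6 (F1_spec hx).2.2.2.2.2.1]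

theorem O0_pres {o : G0} (ho : o ∈ O0) : Pw o := by
  induction ho using Subgroup.closure_induction_right with
  | one =>
    intro x hx
    rw [map_one]
    exact ⟨hx, rfl⟩
  | mul_right x _ y hy ih =>
    obtain ⟨i, hi, rfl⟩ := hy
    exact Pw_mul ih (Pw_eL (bI_mem hi))
  | mul_inv_cancel x _ y hy ih =>
    obtain ⟨i, hi, rfl⟩ := hy
    rw [gi_inv hi]
    exact Pw_mul ih (Pw_eL (bI_mem hi))

theorem op_of_mem {s s' : ℕ} (hs : s ∈ FL) (hs' : s' ∈ FL) (h : tn s * tn s' ∈ O0) {y : ℕ} (hy : y ∈ N6) :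
    O6Vec.op (nub s) (O6Vec.op (nub s') y) = y := by
  obtain ⟨hx, hnx, -, -⟩ := F4_spec hy
  have hp1 := F2_spec hs' hx
  have hp2 := F2_spec hs hp1.1
  have h1 := (O0_pres h _ hx).2
  have hv : ((φ (tn s * tn s') ⟨secv y, FL_lt hx⟩ : Fin NN) : ℕ) = tv s (tv s' (secv y)) := by
    rw [map_mul, Equiv.Perm.mul_apply]
    have e : φ (tn s') ⟨secv y, FL_lt hx⟩ = ⟨tv s' (secv y), FL_lt hp1.1⟩ := Fin.ext (φ_tn (FL_lt hs') (FL_lt hx))
    rw [e, φ_tn (FL_lt hs) (FL_lt hp1.1)]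
  rw [hv, hp2.2.1, hp1.2.1, hnx] at h1
  exact h1

theorem Bar_inj {n m : ℕ} (hn : n ∈ N6) (hm : m ∈ N6) (h : Bar n = Bar m) : n = m := by
  obtain ⟨hs, hns, -, -⟩ := F4_spec hn
  obtain ⟨hs', hns', -, -⟩ := F4_spec hm
  have h1 := mem_O0_of_eq h
  rw [tR_val hs, tR_val hs', tn_inv'] at h1
  have h2 := List.all_eq_true.1 (List.all_eq_true.1 chkOD n hn) m hm
  rw [Bool.or_eq_true] at h2
  rcases h2 with h2 | h2
  · exact beq_iff.1 h2
  · exfalso
    obtain ⟨y, hy, hne⟩ := List.any_eq_true.1 h2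
    have h3 := op_of_mem hs hs' h1 hy
    rw [hns, hns'] at h3
    rw [h3, Nat.beq_refl] at hne
    cases hne

theorem Bar_ne_one {n : ℕ} (hn : n ∈ N6) : Bar n ≠ 1 := by
  intro h
  obtain ⟨hs, hns, -, -⟩ := F4_spec hn
  have h1 : tn (secv n) ∈ O0 := by
    have h2 : tR (secv n) ∈ O1 := (QuotientGroup.eq_one_iff _).1 h
    have h3 := mem_O1.1 h2
    rwa [tR_val hs] at h3
  obtain ⟨y, hy, hne⟩ := List.any_eq_true.1 (List.all_eq_true.1 chkON n hn)
  obtain ⟨hx, hnx, -, -⟩ := F4_spec hy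
  have h2 := (F2_spec hs hx)
  have h3 := (O0_pres h1 _ hx).2
  have e : ((φ (tn (secv n)) ⟨secv y, FL_lt hx⟩ : Fin NN) : ℕ) = tv (secv n) (secv y) := φ_tn (FL_lt hs) (FL_lt hx)
  rw [e, h2.2.1, hns, hnx] at h3
  rw [h3, Nat.beq_refl] at hne
  cases hne

/-! ### The transpositions of the quotient -/

/-- The labels as elements. -/
def Sg6 : Set ↥RB := Subtype.val ⁻¹' {g | ∃ u, u < NN ∧ tb MB u = true ∧ g = tn u}

/-- The transpositions of the quotient. -/
def Dbar : Set Qt := πB '' Sg6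

theorem mem_Sg6 {y : ↥RB} (h : y ∈ Sg6) : ∃ x ∈ FL, y.1 = tn x := by
  obtain ⟨u, hu, hm, he⟩ := h
  exact ⟨u, mem_FL_of_tb hu hm, he⟩

theorem mem_Sg6' {y : ↥RB} {x : ℕ} (hx : x ∈ FL) (h : y.1 = tn x) : y ∈ Sg6 :=
  ⟨x, FL_lt hx, tb_of_FL hx (FL_lt hx), h⟩

theorem Bar_mem {n : ℕ} (hn : n ∈ N6) : Bar n ∈ Dbar := by
  obtain ⟨hs, -⟩ := F4_spec hn
  exact ⟨tR (secv n), mem_Sg6' hs (tR_val hs), rfl⟩

theorem exists_Bar {d : Qt} (hd : d ∈ Dbar) : ∃ n ∈ N6, d = Bar n := by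
  obtain ⟨y, hy, rfl⟩ := hd
  obtain ⟨x, hx, he⟩ := mem_Sg6 hy
  exact ⟨nub x, (F1_spec hx).2.2.2.2.2.1, bar_eq hx he⟩

/-- The elements of the group preserve the labels. -/
theorem R_pres {h : G0} (hh : h ∈ RB) {u : ℕ} (hu : u ∈ FL) : ((φ h ⟨u, FL_lt hu⟩ : Fin NN) : ℕ) ∈ FL := by
  set z := ((φ h ⟨u, FL_lt hu⟩ : Fin NN) : ℕ) with hz
  have hzlt : z < NN := Fin.isLt _
  have h1 : h * tn u * h⁻¹ = tn z := conj_tn h (FL_lt hu)
  have h2 := H_B.RM_le hh
  have h3 : piB u = u := (H_B.hm u (FL_lt hu)).1 (tb_of_FL hu (FL_lt hu))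
  have h4 : τB (tn z) = tn z := by
    rw [← h1, map_mul, map_mul, map_inv, h2, τB_tn (FL_lt hu), h3]
  rw [τB_tn hzlt] at h4
  have h5 : piB z = z := tn_inj (piB_lt hzlt) hzlt h4
  exact mem_FL_of_tb hzlt ((H_B.hm z hzlt).2 h5)

theorem Sg6_sq {y : ↥RB} (h : y ∈ Sg6) : y * y = 1 := by
  obtain ⟨x, -, he⟩ := mem_Sg6 h
  apply Subtype.ext
  show y.1 * y.1 = 1
  rw [he]
  exact tn_sq _

theorem TT_Dbar : TT Dbar where
  sq := by
    rintro _ ⟨y, hy, rfl⟩
    rw [← map_mul, Sg6_sq hy, map_one]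
  ne_one := by
    intro d hd
    obtain ⟨n, hn, rfl⟩ := exists_Bar hd
    exact Bar_ne_one hn
  br := by
    rintro _ ⟨y, hy, rfl⟩ _ ⟨y', hy', rfl⟩
    obtain ⟨x, hx, he⟩ := mem_Sg6 hy
    obtain ⟨x', hx', he'⟩ := mem_Sg6 hy'
    rcases tt0.br _ (tn_mem_D0 (FL_lt hx)) _ (tn_mem_D0 (FL_lt hx')) with h1 | h1
    · left
      show πB y * πB y' = πB y' * πB y
      rw [← map_mul, ← map_mul]
      congr 1
      apply Subtype.ext
      show y.1 * y'.1 = y'.1 * y.1
      rw [he, he']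
      exact h1
    · right
      rw [← map_mul, ← map_mul, ← map_mul, ← map_mul]
      congr 1
      apply Subtype.ext
      show y.1 * y'.1 * y.1 = y'.1 * y.1 * y'.1
      rw [he, he']
      exact h1
  conj := by
    rintro g _ ⟨y, hy, rfl⟩
    obtain ⟨h, rfl⟩ := QuotientGroup.mk'_surjective O1 g
    obtain ⟨x, hx, he⟩ := mem_Sg6 hy
    refine ⟨h * y * h⁻¹, mem_Sg6' (R_pres h.2 hx) ?_, ?_⟩
    · show h.1 * y.1 * h.1⁻¹ = _
      rw [he]
      exact conj_tn h.1 (FL_lt hx)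
    · rw [map_mul, map_mul, map_inv]

theorem closure_Dbar : Subgroup.closure Dbar = ⊤ := by
  have h : Subgroup.closure Sg6 = ⊤ := Subgroup.closure_closure_coe_preimage
  unfold Dbar
  rw [← MonoidHom.map_closure, h]
  exact Subgroup.map_top_of_surjective _ (QuotientGroup.mk'_surjective O1)

/-! ### The centre -/

/-- The check of the elements flipping one label. -/
theorem chkLf : Lf.all (fun p => FL.elem p.1 && (blt p.2 (nat_lit 64) && (Nat.beq (run aV (EwL p.2) (prv p.1)) p.1 &&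
    Lf.all (fun q => Nat.beq q.1 p.1 || Nat.beq (run aV (EwL p.2) q.1) q.1)))) = true := by decide +kernel

theorem EE_val {c x : ℕ} (hc : c < 64) (hx : x < NN) : ((φ (EE c) ⟨x, hx⟩ : Fin NN) : ℕ) = run aV (EwL c) x :=
  wE_val (allFrom_spec chkW c (Nat.zero_le _) (by show c < 0 + 64; exact hc)) ⟨x, hx⟩

theorem exists_flip {z : G0} (hz : Pw z) : ∀ L : List (ℕ × ℕ), (∀ p ∈ L, p ∈ Lf) →
    ∃ o ∈ O0, ∀ p ∈ L, ∀ hp : p.1 < NN, φ (o * z) ⟨p.1, hp⟩ = ⟨p.1, hp⟩ := by
  intro L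
  induction L with
  | nil =>
    intro _
    exact ⟨1, one_mem _, fun p hp => by cases hp⟩
  | cons p L ih =>
    intro hL
    obtain ⟨o', ho', hfix⟩ := ih (fun q hq => hL q (by simp [hq]))
    have hpL := hL p (by simp)
    have hchk := List.all_eq_true.1 chkLf p hpL
    simp only [Bool.and_eq_true] at hchk
    obtain ⟨h1, h2, h3, h4⟩ := hchk
    have hpF : p.1 ∈ FL := List.elem_iff.1 h1
    have hplt : p.1 < NN := FL_lt hpF
    have hd : p.2 < 64 := blt_iff.1 h2
    have hPw : Pw (o' * z) := Pw_mul (O0_pres ho') hz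
    obtain ⟨h5, h6⟩ := hPw p.1 hpF
    rcases F3_spec hpF h5 h6.symm with h7 | h7
    · refine ⟨o', ho', ?_⟩
      intro q hq hqlt
      rcases List.mem_cons.1 hq with rfl | hq'
      · exact Fin.ext h7
      · exact hfix q hq' hqlt
    · refine ⟨EE p.2 * o', mul_mem (EE_mem _) ho', ?_⟩
      intro q hq hqlt
      rw [mul_assoc, map_mul, Equiv.Perm.mul_apply]
      rcases List.mem_cons.1 hq with rfl | hq'
      · have e : φ (o' * z) ⟨q.1, hqlt⟩ = ⟨prv q.1, FL_lt (F1_spec hpF).2.1⟩ := Fin.ext h7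
        rw [e]
        apply Fin.ext
        rw [EE_val hd]
        exact beq_iff.1 h3
      · rw [hfix q hq' hqlt]
        apply Fin.ext
        rw [EE_val hd]
        have h8 := List.all_eq_true.1 h4 q (hL q (by simp [hq']))
        rw [Bool.or_eq_true] at h8
        rcases h8 with h8 | h8
        · exfalso
          have h9 : q.1 = p.1 := beq_iff.1 h8
          have h10 := hfix q hq' hqlt
          have h11 : ((φ (o' * z) ⟨q.1, hqlt⟩ : Fin NN) : ℕ) = q.1 := congrArg Fin.val h10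
          have h12 : φ (o' * z) ⟨q.1, hqlt⟩ = φ (o' * z) ⟨p.1, FL_lt hpF⟩ := by
            congr 2
          rw [h12] at h11
          have h13 : prv p.1 = p.1 := by
            rw [← h7, h11, h9]
          exact (F1_spec hpF).2.2.2.1 h13
        · exact beq_iff.1 h8

/-- The check of a derivation. -/
noncomputable def okDv : List ℕ → List (ℕ × ℕ × ℕ) → Bool
  | _, [] => true
  | seen, e :: r => seen.elem e.2.1 && (seen.elem e.2.2 &&
      (Bool.rec (motive := fun _ => Bool) (Nat.beq (tv e.2.1 e.2.2) e.1) (Nat.beq (prv e.2.1) e.1) (Nat.beq e.2.1 e.2.2) && okDv (e.1 :: seen) r))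

theorem chkDv : okDv (Lf.map Prod.fst) dvL = true := by decide +kernel

theorem chkDv' : FL.all (fun x => (Lf.map Prod.fst).elem x || dvL.any (fun e => Nat.beq e.1 x)) = true := by decide +kernel

theorem comm_iff_fix {w : G0} {x : ℕ} (hx : x < NN) : Commute w (tn x) ↔ φ w ⟨x, hx⟩ = ⟨x, hx⟩ := by
  rw [show tn x = t ⟨x, hx⟩ from tn_val ⟨x, hx⟩]
  exact comm_t_iff' w _

theorem dv_spec {w : G0} (hw : Pw w) : ∀ (l : List (ℕ × ℕ × ℕ)) (seen : List ℕ), (∀ z ∈ seen, z ∈ FL ∧ Commute w (tn z)) → okDv seen l = true →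
    ∀ e ∈ l, e.1 ∈ FL ∧ Commute w (tn e.1) := by
  intro l
  induction l with
  | nil =>
    intro seen _ _ e he
    cases he
  | cons e0 rest ih =>
    intro seen hs hok e he
    unfold okDv at hok
    rw [Bool.and_eq_true, Bool.and_eq_true, Bool.and_eq_true] at hok
    obtain ⟨h1, h2, h3, h4⟩ := hok
    obtain ⟨hp1, hp2⟩ := hs _ (List.elem_iff.1 h1)
    obtain ⟨hq1, hq2⟩ := hs _ (List.elem_iff.1 h2)
    have hP : e0.1 ∈ FL ∧ Commute w (tn e0.1) := by
      cases hb : Nat.beq e0.2.1 e0.2.2 with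
      | false =>
        rw [hb] at h3
        have h5 : tv e0.2.1 e0.2.2 = e0.1 := beq_iff.1 h3
        rw [← h5]
        refine ⟨(F2_spec hp1 hq1).1, ?_⟩
        rw [← tn_conj (FL_lt hp1) (FL_lt hq1)]
        exact (hp2.mul_right hq2).mul_right hp2
      | true =>
        rw [hb] at h3
        have h5 : prv e0.2.1 = e0.1 := beq_iff.1 h3
        rw [← h5]
        obtain ⟨-, hp3, hp4, hp5, hp6, -, -⟩ := F1_spec hp1
        refine ⟨hp3, ?_⟩
        rw [comm_iff_fix (FL_lt hp3)]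
        obtain ⟨h6, h7⟩ := hw _ hp3
        rw [hp6] at h7
        have hfix := (comm_iff_fix (FL_lt hp1)).1 hp2
        rcases F3_spec hp1 h6 h7.symm with h8 | h8
        · exfalso
          have h9 : φ w ⟨prv e0.2.1, FL_lt hp3⟩ = φ w ⟨e0.2.1, FL_lt hp1⟩ := by
            rw [hfix]
            exact Fin.ext h8
          have h10 := (φ w).injective h9
          exact hp5 (congrArg Fin.val h10)
        · exact Fin.ext h8
    rcases List.mem_cons.1 he with rfl | he'
    · exact hP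
    · refine ih (e0.1 :: seen) ?_ h4 e he'
      intro z hz
      rcases List.mem_cons.1 hz with rfl | hz'
      · exact hP
      · exact hs z hz'

theorem fix_all {w : G0} (hw : Pw w) (hf : ∀ p ∈ Lf, p.1 ∈ FL ∧ Commute w (tn p.1)) {x : ℕ} (hx : x ∈ FL) : Commute w (tn x) := by
  have hseen : ∀ z ∈ Lf.map Prod.fst, z ∈ FL ∧ Commute w (tn z) := by
    intro z hz
    obtain ⟨p, hp, rfl⟩ := List.mem_map.1 hz
    exact hf p hp
  have h := List.all_eq_true.1 chkDv' x hx
  rw [Bool.or_eq_true] at h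
  rcases h with h | h
  · exact (hseen x (List.elem_iff.1 h)).2
  · obtain ⟨e, he, hl⟩ := List.any_eq_true.1 h
    rw [← beq_iff.1 hl]
    exact (dv_spec hw _ _ hseen chkDv e he).2

theorem ptsB_chk : (chPts chB1 []).all (fun p => FL.elem p) = true := by decide +kernel

theorem pr2 : prv 2 = 3 := by decide +kernel

theorem FL2 : (2 : ℕ) ∈ FL := by decide +kernel

theorem ab_mem : ta * tb' ∈ O0 := by
  have h := eL_mem FL2
  unfold eL at h
  rwa [pr2] at h

/-- An element of the fixed points commuting with all its transpositions is trivial or the product `ab`. -/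
theorem central_eq {w : G0} (hw : ∀ x ∈ FL, Commute w (tn x)) : w ∈ O0 := by
  have hst : ∀ p ∈ chPts chB1 [], MulAut.conj w (tn p) = tn p := by
    intro p hp
    show w * tn p * w⁻¹ = tn p
    rw [(hw p (List.elem_iff.1 (List.all_eq_true.1 ptsB_chk p hp))).eq]
    group
  obtain ⟨ρ₂, hρ₂, _, hf₂⟩ := ch_sound (ctx2 (τ := τB) (τv := piB) (Subgroup.zpowers (ta * tb')) (s0_zp s0_ab) (Ra := fun _ => false) (fun _ h => by cases h)
    ⟨ta * tb', Subgroup.mem_zpowers _, Or.inr τB_eq⟩ (fun _ h => τB_tn h) (fun _ h => piB_lt h))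
    chB2 _ chB2_ok lt_chB1 (MulAut.conj w) trivial hst
  have h3 := eq_one_of_list chB2_letters hf₂
  have h4 : MulAut.conj w = ρ₂⁻¹ := eq_inv_of_mul_eq_one_right h3
  have h5 : MulAut.conj w ∈ AY (Subgroup.zpowers (ta * tb')) (s0_zp s0_ab) := by
    rw [h4]
    exact inv_mem hρ₂
  have h6 := mem_of_conj_mem h5
  have h7 : Subgroup.zpowers (ta * tb') ≤ O0 := by
    rw [Subgroup.zpowers_le]
    exact ab_mem
  exact h7 h6

theorem center_Qt : Subgroup.center Qt = ⊥ := by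
  rw [eq_bot_iff]
  intro zb hzb
  rw [Subgroup.mem_center_iff] at hzb
  rw [Subgroup.mem_bot]
  obtain ⟨z, rfl⟩ := QuotientGroup.mk'_surjective O1 zb
  have hP : Pw z.1 := by
    intro x hx
    have h1 := R_pres z.2 hx
    refine ⟨h1, ?_⟩
    have h2 := hzb (πB (tR x))
    have h3 : πB (z * tR x * z⁻¹) = πB (tR x) := by
      rw [map_mul, map_mul, map_inv, ← h2]
      group
    have h4 : (z * tR x * z⁻¹).1 = tn (φ z.1 ⟨x, FL_lt hx⟩ : Fin NN) := by
      show z.1 * (tR x).1 * z.1⁻¹ = _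
      rw [tR_val hx]
      exact conj_tn z.1 (FL_lt hx)
    rw [bar_eq h1 h4, bar_eq hx (tR_val hx)] at h3
    exact Bar_inj (F1_spec h1).2.2.2.2.2.1 (F1_spec hx).2.2.2.2.2.1 h3
  obtain ⟨o, ho, hfix⟩ := exists_flip hP Lf (fun _ h => h)
  have hw : Pw (o * z.1) := Pw_mul (O0_pres ho) hP
  have hf : ∀ p ∈ Lf, p.1 ∈ FL ∧ Commute (o * z.1) (tn p.1) := by
    intro p hp
    have hchk := List.all_eq_true.1 chkLf p hp
    simp only [Bool.and_eq_true] at hchk
    have hpF : p.1 ∈ FL := List.elem_iff.1 hchk.1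
    exact ⟨hpF, (comm_iff_fix (FL_lt hpF)).2 (hfix p hp (FL_lt hpF))⟩
  have h1 := central_eq (fun x hx => fix_all hw hf hx)
  have h2 : z.1 ∈ O0 := by
    have h3 : z.1 = o⁻¹ * (o * z.1) := by group
    rw [h3]
    exact mul_mem (inv_mem ho) h1
  exact (QuotientGroup.eq_one_iff _).2 (mem_O1.2 h2)

/-! ### The isometry group -/

/-- The codes. -/
abbrev N6t : Type := {n : ℕ // n ∈ N6}

/-- The transposition of a code. -/
noncomputable def psiA (n : N6t) : Dbar := ⟨Bar n.1, Bar_mem n.2⟩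

/-- The reflection of a code. -/
noncomputable def psiB (n : N6t) : O6Vec.D2 := ⟨O6Vec.refl n.1 (F4_spec n.2).2.2.1, O6Vec.refl_mem _⟩

theorem bijA : Function.Bijective psiA := by
  constructor
  · intro a b h
    apply Subtype.ext
    exact Bar_inj a.2 b.2 (congrArg Subtype.val h)
  · rintro ⟨d, hd⟩
    obtain ⟨n, hn, rfl⟩ := exists_Bar hd
    exact ⟨⟨n, hn⟩, rfl⟩

theorem bijB : Function.Bijective psiB := by
  constructor
  · intro a b h
    apply Subtype.ext
    exact O6Vec.refl_inj (F4_spec a.2).2.2.1 (F4_spec b.2).2.2.1 (F4_spec a.2).2.2.2 (F4_spec b.2).2.2.2 (congrArg Subtype.val h)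
  · rintro ⟨g, hg⟩
    obtain ⟨n, hn, hq, rfl⟩ := O6Vec.exists_refl hg
    exact ⟨⟨n, mem_N6 hn hq⟩, rfl⟩

/-- The bijection of the transpositions. -/
noncomputable def PhiB : Dbar ≃ O6Vec.D2 := (Equiv.ofBijective psiA bijA).symm.trans (Equiv.ofBijective psiB bijB)

theorem PhiB_psi (n : N6t) : PhiB (psiA n) = psiB n := by
  show (Equiv.ofBijective psiB bijB) ((Equiv.ofBijective psiA bijA).symm (psiA n)) = psiB n
  have h : (Equiv.ofBijective psiA bijA).symm (psiA n) = n := (Equiv.ofBijective psiA bijA).symm_apply_apply n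
  rw [h]
  rfl

theorem TT_DB : TT O6Vec.D2 := TT.of_class O6Vec.class_D2

theorem PhiB_tp (y z : Dbar) : PhiB (tpD TT_Dbar y z) = tpD TT_DB (PhiB y) (PhiB z) := by
  obtain ⟨n, rfl⟩ := bijA.2 y
  obtain ⟨m, rfl⟩ := bijA.2 z
  have h1 : tpD TT_Dbar (psiA n) (psiA m) = psiA ⟨O6Vec.op n.1 m.1, op_N6 n.2 m.2⟩ := by
    apply Subtype.ext
    exact Bar_conj n.2 m.2
  have h2 : tpD TT_DB (psiB n) (psiB m) = psiB ⟨O6Vec.op n.1 m.1, op_N6 n.2 m.2⟩ := by
    apply Subtype.ext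
    exact O6Vec.refl_conj (F4_spec n.2).2.2.1 (F4_spec m.2).2.2.1
  rw [h1, PhiB_psi, PhiB_psi, PhiB_psi, h2]

theorem exists_Qt_iso : Nonempty (Qt ≃* Cfsg.isometryGroup (ZMod 2) (Cfsg.quadFormMinus 2 (ZMod 2) 1 1)) := by
  rw [← Cfsg.Agent.Lib.Classical.Orth.Models.coe_minusForm]
  obtain ⟨e, -⟩ := iso_of_equiv TT_Dbar TT_DB closure_Dbar O6Vec.class_D2.2.2 center_Qt O6Vec.center_Oq PhiB PhiB_tp
  exact ⟨e⟩

/-! ### The largest normal 2-subgroup -/

/-- Two commuting classes. -/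
theorem comm_op {n m : ℕ} (hn : n ∈ N6) (hm : m ∈ N6) (h : Commute (Bar n) (Bar m)) : O6Vec.op n m = m := by
  apply Bar_inj (op_N6 hn hm) hm
  rw [← Bar_conj hn hm, h.eq, mul_assoc, Bar_sq hn, mul_one]

theorem chkOB : N6.all (fun n => N6.all (fun k => Nat.beq (O6Vec.op n k) k || !(Nat.beq (O6Vec.op k (O6Vec.op n k)) (O6Vec.op n k)))) = true := by
  decide +kernel

theorem central_of_two {M : Subgroup Qt} (hM : M.Normal) (hP : IsPGroup 2 M) {z : Qt} (hz : z ∈ M) : z = 1 := by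
  rw [← Subgroup.mem_bot, ← center_Qt, Subgroup.mem_center_iff]
  intro d
  have hcl : d ∈ Subgroup.closure Dbar := by
    rw [closure_Dbar]
    exact Subgroup.mem_top d
  have key : ∀ d ∈ Dbar, z * d * z⁻¹ = d := by
    intro d hd
    obtain ⟨n, hn, rfl⟩ := exists_Bar hd
    obtain ⟨m, hm, hme⟩ := exists_Bar (TT_Dbar.conj z _ hd)
    have hc := tt_normal_two TT_Dbar hM hP hz hd
    rw [hme] at hc ⊢
    by_cases hnm : n = m
    · rw [hnm]
    · exfalso
      have h1 := comm_op hn hm hc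
      have h2 := List.all_eq_true.1 (List.all_eq_true.1 chkOT n hn) m hm
      simp only [Bool.or_eq_true, h1, Nat.beq_refl, Bool.not_true, Bool.false_or] at h2
      rcases h2 with h2 | h2
      · exact hnm (beq_iff.1 h2)
      obtain ⟨k, hk, h3⟩ := List.any_eq_true.1 h2
      simp only [Bool.and_eq_true, Bool.not_eq_true'] at h3
      have hmk : O6Vec.op m k = k := beq_iff.1 h3.2
      -- the product of the two transpositions lies in the normal subgroup
      have hinv : (Bar n)⁻¹ = Bar n := inv_eq_of_mul_eq_one_left (Bar_sq hn)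
      have hy : Bar n * Bar m ∈ M := by
        rw [← hme]
        have e : Bar n * (z * Bar n * z⁻¹) = (Bar n * z * (Bar n)⁻¹) * z⁻¹ := by
          rw [hinv]
          group
        rw [e]
        exact mul_mem (hM.conj_mem z hz _) (inv_mem hz)
      have hf := tt_normal_two TT_Dbar hM hP hy (Bar_mem hk)
      have hinvm : (Bar m)⁻¹ = Bar m := inv_eq_of_mul_eq_one_left (Bar_sq hm)
      have he : Bar n * Bar m * Bar k * (Bar n * Bar m)⁻¹ = Bar (O6Vec.op n k) := by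
        rw [mul_inv_rev, hinv, hinvm, ← Bar_conj hn hk]
        have h4 : Bar m * Bar k * Bar m = Bar k := by
          rw [Bar_conj hm hk, hmk]
        calc Bar n * Bar m * Bar k * (Bar m * Bar n) = Bar n * (Bar m * Bar k * Bar m) * Bar n := by group
          _ = _ := by rw [h4]
      rw [he] at hf
      have h5 := comm_op hk (op_N6 hn hk) hf
      have h6 := List.all_eq_true.1 (List.all_eq_true.1 chkOB n hn) k hk
      rw [Bool.or_eq_true] at h6
      rcases h6 with h6 | h6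
      · have h7 := beq_iff.1 h6
        rw [h7, Nat.beq_refl] at h3
        cases h3.1
      · rw [h5, Nat.beq_refl] at h6
        cases h6
  have h : Subgroup.closure Dbar ≤ Subgroup.centralizer ({z} : Set Qt) := by
    rw [Subgroup.closure_le]
    intro d hd
    rw [SetLike.mem_coe, Subgroup.mem_centralizer_singleton_iff]
    have h1 := key d hd
    calc d * z = (z * d * z⁻¹) * z := by rw [h1]
      _ = z * d := by group
  exact Subgroup.mem_centralizer_singleton_iff.1 (h hcl)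

theorem pCore_RB : Cfsg.pCore 2 ↥RB = O1 := by
  haveI : Fact (Nat.Prime 2) := ⟨Nat.prime_two⟩
  apply le_antisymm
  · intro h hh
    have hM : ((Cfsg.pCore 2 ↥RB).map πB).Normal :=
      (Cfsg.Agent.Lib.Basic.PCore.pCore_normal 2 _).map _ (QuotientGroup.mk'_surjective O1)
    have hP : IsPGroup 2 ((Cfsg.pCore 2 ↥RB).map πB) := (Cfsg.Agent.Lib.Basic.PCore.pCore_isPGroup 2).map πB
    have h1 := central_of_two hM hP ⟨h, hh, rfl⟩
    exact (QuotientGroup.eq_one_iff _).1 h1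
  · apply Cfsg.Agent.Lib.Basic.PCore.le_pCore O1_normal
    rintro ⟨g, hg⟩
    refine ⟨1, Subtype.ext (Subtype.ext ?_)⟩
    exact O0_sq (mem_O1.1 hg)

theorem map_pCore_RB : (Cfsg.pCore 2 ↥RB).map RB.subtype = O0 := by
  rw [pCore_RB, O1]
  exact Subgroup.map_subgroupOf_eq_of_le O0_le_RB

end Cfsg.Agent.Lib.Fischer.M22.Rows.Out
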