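/-
The fixed points of the second automorphism of the explicit model of type M(22): a direct product of a group of order two and
the symplectic group of dimension six over the field with two elements.
-/
import Mathlib
import Cfsg.Agent.Lib.Fischer.M22.Rows.Out.Fix2
import Cfsg.Agent.Lib.Fischer.M22.Rows.Out.Sp6Data
import Cfsg.Agent.Lib.Fischer.M22.Compare
import Cfsg.Agent.Lib.Compute.Schur2.SpTwo
import Cfsg.Agent.S0440

set_option autoImplicit false
set_option maxRecDepth 100000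

namespace Cfsg.Agent.Lib.Fischer.M22.Rows.Out

open Cfsg Cfsg.Agent.Lib.Fischer.Basic
open Cfsg.Agent.Lib.Compute.ToddCoxeterCore Cfsg.Agent.Lib.Compute.TCChain
open Cfsg.Agent.Lib.Fischer.M22.Explicit Cfsg.Agent.Lib.Fischer.M22.Rows
open Cfsg.Agent.Lib.Fischer.M22.Rows.O8Vec Cfsg.Agent.Lib.Fischer.M22.Rows.O8Data Cfsg.Agent.Lib.Fischer.M22.Rows.O8
open Cfsg.Agent.Lib.Fischer.M22.Compare
open Cfsg.Agent.Lib.Compute.Schur2.SpTwo
open Matrix

/-! ### The special transposition is not in the commutator subgroup -/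

theorem chkM12 : gC.all (fun n => allFrom (fun q => bEq (tb M1 q) (tb M2 (tv (lT n) q)) && bEq (tb M2 q) (tb M1 (tv (lT n) q))) (nat_lit 3510) (nat_lit 0)) = true := by
  decide +kernel

theorem tt_val (n : ℕ) (hn : n ∈ NSL) (q : Fin NN) : ((φ (tt n) q : Fin NN) : ℕ) = tv (lT n) q := by
  have h1 : tt n = t ⟨lT n, lT_lt hn⟩ := tn_val ⟨lT n, lT_lt hn⟩
  rw [h1]
  exact tv_spec ⟨lT n, lT_lt hn⟩ q

theorem swap12 {n : ℕ} (hn : n ∈ gC) (q : Fin NN) : tb M1 q = tb M2 (φ (tt n) q) ∧ tb M2 q = tb M1 (φ (tt n) q) := by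
  have h := allFrom_spec (List.all_eq_true.1 chkM12 n hn) (q : ℕ) (Nat.zero_le _) (by show (q : ℕ) < 0 + 3510; exact q.2)
  rw [Bool.and_eq_true] at h
  rw [tt_val n (gC_NSL hn)]
  exact ⟨bEq_true h.1, bEq_true h.2⟩

theorem E1_le_Stab : E1 ≤ O8.StabM M1 := by
  have hW : E1 = ⁅Subgroup.closure Sg, Subgroup.closure Sg⁆ := by
    rw [E1, W_eq]
  rw [hW]
  refine O8Grp.commutator_closure_le (S := Sg) (a₀ := tt rootC) (K := O8.StabM M1) ?_ ⟨rootC, root_mem, rfl⟩ ?_
  · rintro _ ⟨n, _, rfl⟩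
    exact tt_sq n
  · rintro _ ⟨n, hn, rfl⟩
    intro q
    rw [map_mul, Equiv.Perm.mul_apply, (swap12 hn q).1, ← (swap12 root_mem (φ (tt n) q)).2]

theorem n0_mem : n0C ∈ NSL := by decide +kernel

theorem lT_n0 : lT n0C = 2 := by decide +kernel

theorem tt_n0 : tt n0C = ta := by
  unfold tt
  rw [lT_n0]

theorem ta_not_E1 : ta ∉ E1 := by
  intro h
  have h1 := E1_le_Stab h ⟨q1L, by decide +kernel⟩
  have h2 : ((φ ta ⟨q1L, by decide +kernel⟩ : Fin NN) : ℕ) = tv 2 q1L := by
    rw [← tt_n0, tt_val _ n0_mem, lT_n0]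
  have h3 : tb M1 q1L = true := by decide +kernel
  have h4 : tb M1 (tv 2 q1L) = false := by decide +kernel
  have h5 : tb M1 q1L = tb M1 ((φ ta ⟨q1L, by decide +kernel⟩ : Fin NN) : ℕ) := h1
  rw [h2, h3, h4] at h5
  cases h5

/-! ### The transpositions -/

/-- The symplectic vector of a code. -/
noncomputable def nuv (n : ℕ) : ℕ := Nat.land (Nat.shiftRight NUT (Nat.mul n (nat_lit 6))) (nat_lit 63)

/-- The symplectic form on codes. -/
def sbb (x y : ℕ) : Bool :=
  xor (xor (xor (x.testBit 3 && y.testBit 0) (x.testBit 0 && y.testBit 3)) (xor (x.testBit 4 && y.testBit 1) (x.testBit 1 && y.testBit 4)))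
    (xor (x.testBit 5 && y.testBit 2) (x.testBit 2 && y.testBit 5))

/-- The transvection on codes. -/
def opS (u v : ℕ) : ℕ := Bool.rec v (u ^^^ v) (sbb v u)

theorem chkL : L63.all (fun n => NSL.elem n && (tb MA (lT n) && ((!(Nat.beq n n0C)) && Nat.beq (tv (lT n0C) (lT n)) (lT n)))) = true := by
  decide +kernel

theorem chkLall : allFrom (fun u => !(tb MA u) || (Nat.beq u (nat_lit 2) || L63.any (fun n => Nat.beq (lT n) u))) (nat_lit 3510) (nat_lit 0) = true := by
  decide +kernel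

theorem chkOp' : L63.all (fun n => L63.all (fun m => L63.elem (op n m) && Nat.beq (nuv (op n m)) (opS (nuv n) (nuv m)))) = true := by
  decide +kernel

theorem chkNu : L63.all (fun n => blt (nuv n) (nat_lit 64) && !(Nat.beq (nuv n) (nat_lit 0))) = true := by
  decide +kernel

theorem chkNuInj : L63.all (fun n => L63.all (fun m => Nat.beq n m || !(Nat.beq (nuv n) (nuv m)))) = true := by
  decide +kernel

theorem chkNuSurj : allFrom (fun c => Nat.beq c (nat_lit 0) || L63.any (fun n => Nat.beq (nuv n) c)) (nat_lit 64) (nat_lit 0) = true := by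
  decide +kernel

section L
variable {n m : ℕ}

theorem L_spec (hn : n ∈ L63) : n ∈ NSL ∧ tb MA (lT n) = true ∧ n ≠ n0C ∧ tv (lT n0C) (lT n) = lT n := by
  have h := List.all_eq_true.1 chkL n hn
  simp only [Bool.and_eq_true, Bool.not_eq_true'] at h
  refine ⟨List.elem_iff.1 h.1, h.2.1, ?_, beq_iff.1 h.2.2.2⟩
  intro h1
  rw [h1, Nat.beq_refl] at h
  cases h.2.2.1

theorem L_NSL (hn : n ∈ L63) : n ∈ NSL := (L_spec hn).1

theorem comm_ta (hn : n ∈ L63) : ta * tt n = tt n * ta := by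
  have h1 := tt_conj n0_mem (L_NSL hn)
  have h2 : op n0C n = n := by
    apply lT_inj (op_mem n0_mem (L_NSL hn)) (L_NSL hn)
    rw [← (L_spec hn).2.2.2]
    exact (beq_iff.1 (List.all_eq_true.1 (List.all_eq_true.1 chkOp n0C n0_mem) n (L_NSL hn))).symm
  rw [h2, tt_n0] at h1
  calc ta * tt n = ta * tt n * (ta * ta) := by rw [show ta * ta = 1 from tn_sq 2, mul_one]
    _ = (ta * tt n * ta) * ta := by simp only [mul_assoc]
    _ = _ := by rw [h1]

theorem op_L (hn : n ∈ L63) (hm : m ∈ L63) : op n m ∈ L63 := by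
  have h := List.all_eq_true.1 (List.all_eq_true.1 chkOp' n hn) m hm
  rw [Bool.and_eq_true] at h
  exact List.elem_iff.1 h.1

theorem nuv_op (hn : n ∈ L63) (hm : m ∈ L63) : nuv (op n m) = opS (nuv n) (nuv m) := by
  have h := List.all_eq_true.1 (List.all_eq_true.1 chkOp' n hn) m hm
  rw [Bool.and_eq_true] at h
  exact beq_iff.1 h.2

theorem nuv_lt (hn : n ∈ L63) : nuv n < 64 := by
  have h := List.all_eq_true.1 chkNu n hn
  rw [Bool.and_eq_true] at h
  exact blt_iff.1 h.1

theorem nuv_ne (hn : n ∈ L63) : nuv n ≠ 0 := by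
  have h := List.all_eq_true.1 chkNu n hn
  rw [Bool.and_eq_true] at h
  intro h1
  have h2 := h.2
  rw [h1] at h2
  cases h2

theorem nuv_inj (hn : n ∈ L63) (hm : m ∈ L63) (h : nuv n = nuv m) : n = m := by
  have h1 := List.all_eq_true.1 (List.all_eq_true.1 chkNuInj n hn) m hm
  rw [Bool.or_eq_true] at h1
  rcases h1 with h1 | h1
  · exact beq_iff.1 h1
  · rw [h, Nat.beq_refl] at h1
    cases h1

end L

/-- The elements in the commutator subgroup. -/
noncomputable def SA (n : ℕ) : G0 := ta * tt n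

theorem prod_conj {G : Type*} [Group G] {a b c : G} (ha : a * a = 1) (hb : a * b = b * a) (hc : a * c = c * a) :
    (a * b) * (a * c) * (a * b) = a * (b * c * b) := by
  calc (a * b) * (a * c) * (a * b) = a * (b * a) * (c * a) * b := by simp only [mul_assoc]
    _ = a * (a * b) * (a * c) * b := by rw [← hb, ← hc]
    _ = (a * a) * (b * a) * c * b := by simp only [mul_assoc]
    _ = (b * a) * c * b := by rw [ha, one_mul]
    _ = (a * b) * c * b := by rw [← hb]
    _ = _ := by simp only [mul_assoc]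

theorem ta_sq : ta * ta = 1 := tn_sq 2

theorem SA_conj {n m : ℕ} (hn : n ∈ L63) (hm : m ∈ L63) : SA n * SA m * SA n = SA (op n m) := by
  unfold SA
  rw [prod_conj ta_sq (comm_ta hn) (comm_ta hm), tt_conj (L_NSL hn) (L_NSL hm)]

theorem SA_sq {n : ℕ} (hn : n ∈ L63) : SA n * SA n = 1 := by
  unfold SA
  calc ta * tt n * (ta * tt n) = ta * (tt n * ta) * tt n := by simp only [mul_assoc]
    _ = ta * (ta * tt n) * tt n := by rw [comm_ta hn]
    _ = (ta * ta) * (tt n * tt n) := by simp only [mul_assoc]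
    _ = 1 := by rw [ta_sq, tt_sq, one_mul]

theorem SA_inv {n : ℕ} (hn : n ∈ L63) : (SA n)⁻¹ = SA n := inv_eq_of_mul_eq_one_left (SA_sq hn)

theorem SA_mem_E1 {n : ℕ} (hn : n ∈ L63) : SA n ∈ E1 := by
  unfold SA
  rw [← tt_n0]
  exact tt_mul_mem n0_mem (L_NSL hn)

theorem SA_ne {n : ℕ} (hn : n ∈ L63) : SA n ≠ 1 := by
  intro h
  have h1 : ta = tt n := by
    have h2 : ta * tt n = 1 := h
    calc ta = ta * (tt n * tt n) := by rw [tt_sq, mul_one]
      _ = (ta * tt n) * tt n := by rw [mul_assoc]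
      _ = _ := by rw [h2, one_mul]
  rw [← tt_n0] at h1
  exact (L_spec hn).2.2.1 (tt_inj n0_mem (L_NSL hn) h1).symm

/-- The group. -/
noncomputable def K2 : Subgroup G0 := Subgroup.closure (SA '' {n | n ∈ L63})

theorem K2_le_E1 : K2 ≤ E1 := by
  rw [K2, Subgroup.closure_le]
  rintro _ ⟨n, hn, rfl⟩
  exact SA_mem_E1 hn

theorem K2_conj {g : G0} (hg : g ∈ K2) : (∀ n ∈ L63, ∃ k ∈ L63, g * SA n * g⁻¹ = SA k) ∧
    (∀ n ∈ L63, ∃ k ∈ L63, g⁻¹ * SA n * g = SA k) := by
  induction hg using Subgroup.closure_induction with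
  | mem a ha =>
    obtain ⟨m, hm, rfl⟩ := ha
    constructor
    · intro n hn
      exact ⟨op m n, op_L hm hn, by rw [SA_inv hm, SA_conj hm hn]⟩
    · intro n hn
      exact ⟨op m n, op_L hm hn, by rw [SA_inv hm, SA_conj hm hn]⟩
  | one =>
    constructor <;>
    · intro n hn
      exact ⟨n, hn, by simp⟩
  | mul a b _ _ iha ihb =>
    constructor
    · intro n hn
      obtain ⟨k, hk, e1⟩ := ihb.1 n hn
      obtain ⟨l, hl, e2⟩ := iha.1 k hk
      refine ⟨l, hl, ?_⟩
      rw [← e2, ← e1]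
      group
    · intro n hn
      obtain ⟨k, hk, e1⟩ := iha.2 n hn
      obtain ⟨l, hl, e2⟩ := ihb.2 k hk
      refine ⟨l, hl, ?_⟩
      rw [← e2, ← e1]
      group
  | inv a _ iha =>
    constructor
    · intro n hn
      obtain ⟨k, hk, e1⟩ := iha.2 n hn
      exact ⟨k, hk, by rw [inv_inv]; exact e1⟩
    · intro n hn
      obtain ⟨k, hk, e1⟩ := iha.1 n hn
      exact ⟨k, hk, by rw [inv_inv]; exact e1⟩

/-- The transpositions of the group. -/
def D1' : Set ↥K2 := Subtype.val ⁻¹' (SA '' {n | n ∈ L63})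

theorem TT_D1' : TT D1' where
  sq := by
    rintro d ⟨n, hn, h⟩
    apply Subtype.ext
    show d.1 * d.1 = 1
    rw [← h]
    exact SA_sq hn
  ne_one := by
    rintro d ⟨n, hn, h⟩ h1
    apply SA_ne hn
    rw [h, h1]
    rfl
  br := by
    rintro x ⟨n, hn, h⟩ y ⟨m, hm, h'⟩
    have hxy : x.1 * y.1 * x.1 = SA (op n m) := by rw [← h, ← h', SA_conj hn hm]
    have hyx : y.1 * x.1 * y.1 = SA (op m n) := by rw [← h, ← h', SA_conj hm hn]
    rcases tt0.br _ (tt_mem_D0 (L_NSL hn)) _ (tt_mem_D0 (L_NSL hm)) with h1 | h1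
    · left
      apply Subtype.ext
      show x.1 * y.1 = y.1 * x.1
      have h2 : tt n * tt m = tt m * tt n := h1
      rw [← h, ← h']
      unfold SA
      calc ta * tt n * (ta * tt m) = ta * (tt n * ta) * tt m := by simp only [mul_assoc]
        _ = ta * (ta * tt n) * tt m := by rw [comm_ta hn]
        _ = ta * ta * (tt n * tt m) := by simp only [mul_assoc]
        _ = ta * ta * (tt m * tt n) := by rw [h2]
        _ = ta * (ta * tt m) * tt n := by simp only [mul_assoc]
        _ = ta * (tt m * ta) * tt n := by rw [comm_ta hm]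
        _ = _ := by simp only [mul_assoc]
    · right
      apply Subtype.ext
      show x.1 * y.1 * x.1 = y.1 * x.1 * y.1
      rw [hxy, hyx]
      unfold SA
      rw [← tt_conj (L_NSL hn) (L_NSL hm), ← tt_conj (L_NSL hm) (L_NSL hn), h1]
  conj := by
    rintro g d ⟨n, hn, h⟩
    obtain ⟨k, hk, e⟩ := (K2_conj g.2).1 n hn
    refine ⟨k, hk, ?_⟩
    rw [← e]
    show _ = g.1 * d.1 * g.1⁻¹
    rw [← h]

theorem closure_D1' : Subgroup.closure D1' = ⊤ := Subgroup.closure_closure_coe_preimage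

/-! ### The centre -/

theorem K2_le_RA : K2 ≤ RM MA := by
  rw [K2, Subgroup.closure_le]
  rintro _ ⟨n, hn, rfl⟩
  exact mul_mem ta_mem_RA (tn_mem_RM (lT_lt (L_NSL hn)) (L_spec hn).2.1)

theorem pts_chk : (chPts chA1 [2]).all (fun p => tb MA p && blt p (nat_lit 3510)) = true := by decide +kernel

theorem mem_zp_sq {G : Type*} [Group G] {x y : G} (hx : x * x = 1) (h : y ∈ Subgroup.zpowers x) : y = 1 ∨ y = x := by
  obtain ⟨k, rfl⟩ := h
  rcases Int.even_or_odd' k with ⟨q, rfl | rfl⟩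
  · left
    show x ^ (2 * q) = 1
    rw [_root_.zpow_mul, zpow_two, hx, _root_.one_zpow]
  · right
    show x ^ (2 * q + 1) = x
    rw [_root_.zpow_add, _root_.zpow_mul, zpow_two, hx, _root_.one_zpow, one_mul, zpow_one]

theorem center_K2 : Subgroup.center ↥K2 = ⊥ := by
  rw [eq_bot_iff]
  intro z hz
  rw [Subgroup.mem_center_iff] at hz
  rw [Subgroup.mem_bot]
  apply Subtype.ext
  have hzR : z.1 ∈ RM MA := K2_le_RA z.2
  have hcA : Commute z.1 ta := fix_A_comm (H_A.RM_le hzR)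
  have hcSA : ∀ n ∈ L63, Commute z.1 (SA n) := by
    intro n hn
    have h1 := hz ⟨SA n, Subgroup.subset_closure ⟨n, hn, rfl⟩⟩
    exact (congrArg Subtype.val h1).symm
  have hcT : ∀ n ∈ L63, Commute z.1 (tt n) := by
    intro n hn
    have h1 : tt n = ta * SA n := by
      unfold SA
      rw [← mul_assoc, ta_sq, one_mul]
    rw [h1]
    exact hcA.mul_right (hcSA n hn)
  have hfix : ∀ p, p < NN → tb MA p = true → MulAut.conj z.1 (tn p) = tn p := by
    intro p hp hm
    have h1 := allFrom_spec chkLall p (Nat.zero_le _) (by show p < 0 + 3510; exact hp)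
    simp only [hm, Bool.not_true, Bool.false_or, Bool.or_eq_true] at h1
    show z.1 * tn p * z.1⁻¹ = tn p
    rcases h1 with h1 | h1
    · rw [beq_iff.1 h1]
      rw [hcA.eq]
      group
    · obtain ⟨n, hn, hl⟩ := List.any_eq_true.1 h1
      rw [← beq_iff.1 hl]
      have h2 : z.1 * tn (lT n) = tn (lT n) * z.1 := (hcT n hn).eq
      rw [h2]
      group
  have hst : ∀ p ∈ chPts chA1 [2], MulAut.conj z.1 (tn p) = tn p := by
    intro p hp
    have h1 := List.all_eq_true.1 pts_chk p hp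
    rw [Bool.and_eq_true] at h1
    exact hfix p (blt_iff.1 h1.2) h1.1
  have hRa : ∀ a, Nat.beq a (nat_lit 18) = true → aG a ∈ Subgroup.zpowers ta := by
    intro a ha
    have h1 : a = 18 := beq_iff.1 ha
    rw [h1]
    have h2 : aG 18 = ta := by
      unfold aG
      rw [if_neg (by norm_num)]
    rw [h2]
    exact Subgroup.mem_zpowers _
  obtain ⟨ρ₂, hρ₂, _, hf₂⟩ := ch_sound (ctx2 (τ := s0) (τv := piv) (Subgroup.zpowers ta) (s0_zp s0_ta) hRa
    ⟨1, one_mem _, Or.inr (by rw [map_one, one_mul])⟩ (fun _ h => s0_tn h) (fun _ h => piv_lt h))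
    chA2 _ chA2_ok lt_chA1 (MulAut.conj z.1) trivial hst
  have h3 := eq_one_of_list chA2_letters hf₂
  have h4 : MulAut.conj z.1 = ρ₂⁻¹ := eq_inv_of_mul_eq_one_right h3
  have h5 : MulAut.conj z.1 ∈ AY (Subgroup.zpowers ta) (s0_zp s0_ta) := by
    rw [h4]
    exact inv_mem hρ₂
  have h6 := mem_of_conj_mem h5
  rcases mem_zp_sq ta_sq h6 with h7 | h7
  · exact h7
  · exfalso
    apply ta_not_E1
    rw [← h7]
    exact K2_le_E1 z.2

/-! ### The symplectic group -/

local notation "ttt" => (Cfsg.Agent.Lib.Classical.Symp.RankOne.tt (F := ZMod 2) (m := 3))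

/-- The transvections. -/
def D2' : Set Sp6 := {g | ((g : Matrix (Fin 3 ⊕ Fin 3) (Fin 3 ⊕ Fin 3) (ZMod 2)) - 1).rank = 1}

theorem class_D2' : Cfsg.IsThreeTranspositionClass D2' := Cfsg.Agent.S0440.result 3 (by norm_num)

theorem TT_D2' : TT D2' := TT.of_class class_D2'

theorem sf_dec : ∀ x y : Fin 64, Cfsg.sympForm 3 (ZMod 2) (dec x) (dec y) = if sbb x y then 1 else 0 := by
  intro x y
  rw [Cfsg.Agent.Lib.Classical.Symp.Basic.sympForm_apply, Fin.sum_univ_three]
  revert x y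
  decide +kernel

theorem dec_xor : ∀ x y : Fin 64, dec ((x : ℕ) ^^^ (y : ℕ)) = dec x + dec y := by decide +kernel

theorem dec_zero : dec 0 = 0 := by decide +kernel

theorem dec_inj {x y : ℕ} (hx : x < 64) (hy : y < 64) (h : dec x = dec y) : x = y := by
  have h1 := enc_dec ⟨x, hx⟩
  have h2 := enc_dec ⟨y, hy⟩
  simp only at h1 h2
  rw [← h1, ← h2, h]

/-- The transvection of a code. -/
noncomputable def TS (u : ℕ) : Sp6 := ttt (dec u) 1

theorem TS_conj {u v : ℕ} (hu : u < 64) (hv : v < 64) : TS u * TS v * TS u = TS (opS u v) := by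
  have h1 := Cfsg.Agent.Lib.Classical.Symp.RankOne.tt_conj (ttt (dec u) 1) (dec v) 1
  rw [Cfsg.Agent.S0440.ttt_inv] at h1
  unfold TS
  rw [h1]
  congr 1
  rw [Cfsg.Agent.Lib.Classical.Symp.RankOne.tt_coe, Cfsg.Agent.Lib.Classical.Symp.Basic.sympTransvection_mulVec]
  have h2 := sf_dec ⟨v, hv⟩ ⟨u, hu⟩
  simp only at h2
  rw [h2]
  unfold opS
  cases h3 : sbb v u with
  | false => simp
  | true =>
    simp only [if_true, one_mul, one_smul]
    have h4 := dec_xor ⟨u, hu⟩ ⟨v, hv⟩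
    simp only at h4
    show _ = dec (u ^^^ v)
    rw [h4, add_comm]

theorem dec_ne {c : ℕ} (hc : c < 64) (h0 : c ≠ 0) : dec c ≠ 0 := by
  intro h
  rw [← dec_zero] at h
  exact h0 (dec_inj hc (by norm_num) h)

/-- The elements from codes. -/
abbrev LSt : Type := {n : ℕ // n ∈ L63}

/-- The transposition of a code in the group. -/
noncomputable def psi1' (n : LSt) : D1' := ⟨⟨SA n.1, Subgroup.subset_closure ⟨n.1, n.2, rfl⟩⟩, ⟨n.1, n.2, rfl⟩⟩

/-- The transvection of a code. -/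
noncomputable def psi2' (n : LSt) : D2' :=
  ⟨TS (nuv n.1), (Cfsg.Agent.S0440.rank_iff _).2 ⟨dec (nuv n.1), dec_ne (nuv_lt n.2) (nuv_ne n.2), rfl⟩⟩

theorem bij1' : Function.Bijective psi1' := by
  constructor
  · intro a b h
    apply Subtype.ext
    have h1 : SA a.1 = SA b.1 := congrArg (fun d : D1' => (d.1 : G0)) h
    have h2 : tt a.1 = tt b.1 := by
      unfold SA at h1
      exact mul_left_cancel h1
    exact tt_inj (L_NSL a.2) (L_NSL b.2) h2
  · rintro ⟨⟨g, hg⟩, n, hn, h⟩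
    refine ⟨⟨n, hn⟩, ?_⟩
    apply Subtype.ext
    apply Subtype.ext
    exact h

theorem zmod2_c (c : ZMod 2) : c = 0 ∨ c = 1 := by
  revert c
  decide

theorem bij2' : Function.Bijective psi2' := by
  constructor
  · intro a b h
    apply Subtype.ext
    have h1 : TS (nuv a.1) = TS (nuv b.1) := congrArg Subtype.val h
    obtain ⟨c, hc⟩ := Cfsg.Agent.Lib.Classical.Symp.RankOne.exists_smul_of_tt_eq (dec_ne (nuv_lt b.2) (nuv_ne b.2)) h1
    rcases zmod2_c c with rfl | rfl
    · rw [zero_smul] at hc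
      exact absurd hc (dec_ne (nuv_lt a.2) (nuv_ne a.2))
    · rw [one_smul] at hc
      exact nuv_inj a.2 b.2 (dec_inj (nuv_lt a.2) (nuv_lt b.2) hc)
  · rintro ⟨g, hg⟩
    obtain ⟨w, hw, rfl⟩ := (Cfsg.Agent.S0440.rank_iff _).1 hg
    have hc : enc w < 64 := enc_lt w
    have hd : dec (enc w) = w := dec_enc w
    have h0 : enc w ≠ 0 := by
      intro h
      rw [h, dec_zero] at hd
      exact hw hd.symm
    have h1 := allFrom_spec chkNuSurj (enc w) (Nat.zero_le _) (by show enc w < 0 + 64; exact hc)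
    rw [Bool.or_eq_true] at h1
    rcases h1 with h1 | h1
    · exact absurd (beq_iff.1 h1) h0
    · obtain ⟨n, hn, he⟩ := List.any_eq_true.1 h1
      refine ⟨⟨n, hn⟩, Subtype.ext ?_⟩
      show TS (nuv n) = _
      unfold TS
      rw [beq_iff.1 he, hd]

/-- The bijection of the transpositions. -/
noncomputable def Phi' : D1' ≃ D2' := (Equiv.ofBijective psi1' bij1').symm.trans (Equiv.ofBijective psi2' bij2')

theorem Phi_psi' (n : LSt) : Phi' (psi1' n) = psi2' n := by
  show (Equiv.ofBijective psi2' bij2') ((Equiv.ofBijective psi1' bij1').symm (psi1' n)) = psi2' n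
  have h : (Equiv.ofBijective psi1' bij1').symm (psi1' n) = n := (Equiv.ofBijective psi1' bij1').symm_apply_apply n
  rw [h]
  rfl

theorem Phi_tp' (y z : D1') : Phi' (tpD TT_D1' y z) = tpD TT_D2' (Phi' y) (Phi' z) := by
  obtain ⟨n, rfl⟩ := bij1'.2 y
  obtain ⟨m, rfl⟩ := bij1'.2 z
  have h1 : tpD TT_D1' (psi1' n) (psi1' m) = psi1' ⟨op n.1 m.1, op_L n.2 m.2⟩ := by
    apply Subtype.ext
    apply Subtype.ext
    exact SA_conj n.2 m.2
  have h2 : tpD TT_D2' (psi2' n) (psi2' m) = psi2' ⟨op n.1 m.1, op_L n.2 m.2⟩ := by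
    apply Subtype.ext
    show TS (nuv n.1) * TS (nuv m.1) * TS (nuv n.1) = TS (nuv (op n.1 m.1))
    rw [TS_conj (nuv_lt n.2) (nuv_lt m.2), nuv_op n.2 m.2]
  rw [h1, Phi_psi', Phi_psi', Phi_psi', h2]

theorem exists_K2_iso : Nonempty (↥K2 ≃* Sp6) := by
  obtain ⟨e, -⟩ := iso_of_equiv TT_D1' TT_D2' closure_D1' class_D2'.2.2 center_K2 (center_eq_bot (F := ZMod 2) (ZMod.card 2)) Phi' Phi_tp'
  exact ⟨e⟩

/-! ### The direct product -/

theorem ta_comm_K2 {k : G0} (hk : k ∈ K2) : Commute ta k := by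
  have h : K2 ≤ Subgroup.centralizer ({ta} : Set G0) := by
    rw [K2, Subgroup.closure_le]
    rintro _ ⟨n, hn, rfl⟩
    rw [SetLike.mem_coe, Subgroup.mem_centralizer_singleton_iff]
    show SA n * ta = ta * SA n
    unfold SA
    rw [mul_assoc, ← comm_ta hn, ← mul_assoc]
  exact (Subgroup.mem_centralizer_singleton_iff.1 (h hk)).symm

/-- The homomorphism from the group of order two. -/
noncomputable def fZ : Multiplicative (ZMod 2) →* G0 where
  toFun x := if x.toAdd = 0 then 1 else ta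
  map_one' := by simp
  map_mul' x y := by
    rcases zmod2_c x.toAdd with hx | hx <;> rcases zmod2_c y.toAdd with hy | hy <;> rw [toAdd_mul, hx, hy]
    · simp
    · simp
    · simp
    · have h1 : (1 + 1 : ZMod 2) = 0 := rfl
      have h2 : (1 : ZMod 2) ≠ 0 := one_ne_zero
      simp only [h1, if_true, h2, if_false]
      exact ta_sq.symm

/-- The product map. -/
noncomputable def Θ : Multiplicative (ZMod 2) × ↥K2 →* G0 :=
  fZ.noncommCoprod K2.subtype (by
    intro x k
    show Commute (if x.toAdd = 0 then 1 else ta) k.1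
    split_ifs
    · exact Commute.one_left _
    · exact ta_comm_K2 k.2)

theorem Θ_apply (x : Multiplicative (ZMod 2)) (k : ↥K2) : Θ (x, k) = fZ x * k.1 := rfl

theorem Θ_inj : Function.Injective Θ := by
  rw [injective_iff_map_eq_one]
  rintro ⟨x, k⟩ h
  rw [Θ_apply] at h
  rcases zmod2_c x.toAdd with hx | hx
  · have h1 : fZ x = 1 := by
      show (if x.toAdd = 0 then 1 else ta) = 1
      rw [if_pos hx]
    rw [h1, one_mul] at h
    have h2 : x = 1 := hx
    rw [h2]
    exact Prod.ext rfl (Subtype.ext h)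
  · exfalso
    have h1 : fZ x = ta := by
      show (if x.toAdd = 0 then 1 else ta) = ta
      rw [if_neg (by rw [hx]; exact one_ne_zero)]
    rw [h1] at h
    apply ta_not_E1
    have h2 : ta = k.1⁻¹ := eq_inv_of_mul_eq_one_left h
    rw [h2]
    exact inv_mem (K2_le_E1 k.2)

theorem fZ_one : fZ (Multiplicative.ofAdd 1) = ta := by
  show (if Multiplicative.toAdd (Multiplicative.ofAdd (1 : ZMod 2)) = 0 then 1 else ta) = ta
  rw [if_neg]
  exact one_ne_zero

theorem Θ_range : Θ.range = RM MA := by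
  apply le_antisymm
  · rintro _ ⟨⟨x, k⟩, rfl⟩
    rw [Θ_apply]
    refine mul_mem ?_ (K2_le_RA k.2)
    show (if x.toAdd = 0 then 1 else ta) ∈ _
    split_ifs
    · exact one_mem _
    · exact ta_mem_RA
  · rw [RM, Subgroup.closure_le]
    rintro _ ⟨u, hu, hm, rfl⟩
    have h1 := allFrom_spec chkLall u (Nat.zero_le _) (by show u < 0 + 3510; exact hu)
    simp only [hm, Bool.not_true, Bool.false_or, Bool.or_eq_true] at h1
    rcases h1 with h1 | h1
    · rw [beq_iff.1 h1]
      refine ⟨(Multiplicative.ofAdd 1, 1), ?_⟩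
      rw [Θ_apply, fZ_one]
      simp
    · obtain ⟨n, hn, hl⟩ := List.any_eq_true.1 h1
      rw [← beq_iff.1 hl]
      refine ⟨(Multiplicative.ofAdd 1, ⟨SA n, Subgroup.subset_closure ⟨n, hn, rfl⟩⟩), ?_⟩
      rw [Θ_apply, fZ_one]
      show ta * (ta * tt n) = tt n
      rw [← mul_assoc, ta_sq, one_mul]

theorem RA_iso : Nonempty (↥(RM MA) ≃* Multiplicative (ZMod 2) × Cfsg.PSp 3 (ZMod 2)) := by
  obtain ⟨e⟩ := exists_K2_iso
  obtain ⟨f⟩ := nonempty_equiv_PSp (F := ZMod 2) (ZMod.card 2)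
  have e1 : (Multiplicative (ZMod 2) × ↥K2) ≃* ↥(RM MA) :=
    (MonoidHom.ofInjective Θ_inj).trans (MulEquiv.subgroupCongr Θ_range)
  exact ⟨e1.symm.trans (MulEquiv.prodCongr (MulEquiv.refl _) (e.trans f))⟩

/-! ### The description by the first automorphism -/

theorem fix_A_iff {g : G0} : τA g = g ↔ g ∈ O8.I ⊓ Subgroup.centralizer ({ta} : Set G0) := by
  constructor
  · intro h
    have hc := fix_A_comm h
    refine Subgroup.mem_inf.2 ⟨?_, ?_⟩
    · rw [← fix_S']
      have h1 : ta * g * ta⁻¹ = g := by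
        rw [← hc.eq]
        group
      rw [τA_apply, h1] at h
      exact h
    · rw [Subgroup.mem_centralizer_singleton_iff]
      exact hc.symm.eq.symm
  · intro h
    obtain ⟨h1, h2⟩ := Subgroup.mem_inf.1 h
    have hs := fix_S'.2 h1
    have hc := Subgroup.mem_centralizer_singleton_iff.1 h2
    rw [τA_apply]
    have h3 : ta * g * ta⁻¹ = g := by
      rw [← hc]
      group
    rw [h3, hs]

theorem RA_eq : O8.I ⊓ Subgroup.centralizer ({ta} : Set G0) = RM MA := by
  ext g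
  rw [← fix_A_iff, fix_A]

end Cfsg.Agent.Lib.Fischer.M22.Rows.Out
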