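/-
Transport of the classification of the outer involutions of the explicit model of type M(22) and of their fixed points to an
arbitrary group isomorphic to it.
-/
import Mathlib
import Cfsg.Agent.Lib.Fischer.M22.Rows.Out.Cls2
import Cfsg.Agent.Lib.Fischer.M22.Rows.Out.Sp6
import Cfsg.Agent.Lib.Fischer.M22.Rows.Out.O6b
import Cfsg.Agent.Lib.Fischer.M22.Rows.O8Main

set_option autoImplicit false

namespace Cfsg.Agent.Lib.Fischer.M22.Rows.Out

open Cfsg
open Cfsg.Agent.Lib.Fischer.M22.Explicit Cfsg.Agent.Lib.Fischer.M22.Rows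

section PC

variable {H H' : Type*} [Group H] [Group H'] [Finite H] [Finite H']

theorem pCore_map_le (f : H ≃* H') : (Cfsg.pCore 2 H).map f.toMonoidHom ≤ Cfsg.pCore 2 H' := by
  haveI : Fact (Nat.Prime 2) := ⟨Nat.prime_two⟩
  apply Cfsg.Agent.Lib.Basic.PCore.le_pCore
  · exact (Cfsg.Agent.Lib.Basic.PCore.pCore_normal 2 _).map _ f.surjective
  · exact (Cfsg.Agent.Lib.Basic.PCore.pCore_isPGroup 2).map _

theorem pCore_map_eq (f : H ≃* H') : (Cfsg.pCore 2 H).map f.toMonoidHom = Cfsg.pCore 2 H' := by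
  apply le_antisymm (pCore_map_le f)
  intro x hx
  exact ⟨f.symm x, pCore_map_le f.symm ⟨x, hx, rfl⟩, by simp⟩

end PC

variable {G : Type*} [Group G] [Finite G] {D : Set G}

section T

variable (e : G ≃* G0)

/-- The isomorphism of the automorphism groups. -/
noncomputable def κ : MulAut G ≃* MulAut G0 := MulAut.congr e

theorem κ_apply (ψ : MulAut G) (g : G) : κ e ψ (e g) = e (ψ g) := by
  show e (ψ (e.symm (e g))) = _
  simp

theorem κ_conj (g : G) : κ e (MulAut.conj g) = MulAut.conj (e g) := by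
  ext h
  show e (g * e.symm h * g⁻¹) = e g * h * (e g)⁻¹
  simp

theorem fix_iff (ψ : MulAut G) (g : G) : ψ g = g ↔ κ e ψ (e g) = e g := by
  rw [κ_apply]
  exact e.injective.eq_iff.symm

theorem mem_map_sym {X : Subgroup G0} {g : G} : g ∈ X.map e.symm.toMonoidHom ↔ e g ∈ X := by
  constructor
  · rintro ⟨x, hx, rfl⟩
    have : e (e.symm.toMonoidHom x) = x := e.apply_symm_apply x
    rw [this]
    exact hx
  · intro h
    exact ⟨e g, h, e.symm_apply_apply g⟩

theorem not_inner_iff (ψ : MulAut G) (h : ψ ∉ (MulAut.conj : G →* MulAut G).range) :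
    κ e ψ ∉ (MulAut.conj : G0 →* MulAut G0).range := by
  rintro ⟨g, hg⟩
  apply h
  refine ⟨e.symm g, (κ e).injective ?_⟩
  rw [κ_conj, e.apply_symm_apply]
  exact hg

theorem orderOf_s0 : orderOf s0 = 2 := orderOf_eq_prime (by rw [pow_two]; exact s0_sq) s0_ne_one

theorem conj_map {x y : MulAut G0} (h : IsConj x y) : IsConj ((κ e).symm x) ((κ e).symm y) := by
  obtain ⟨c, hc⟩ := isConj_iff.1 h
  refine isConj_iff.2 ⟨(κ e).symm c, ?_⟩
  rw [← map_inv, ← map_mul, ← map_mul, hc]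

theorem conj_map' {x y : MulAut G} (h : IsConj x y) : IsConj (κ e x) (κ e y) := by
  obtain ⟨c, hc⟩ := isConj_iff.1 h
  refine isConj_iff.2 ⟨κ e c, ?_⟩
  rw [← map_inv, ← map_mul, ← map_mul, hc]

end T

/-- The main statement. -/
theorem main (e : G ≃* G0) (he : e '' D = D0) :
    ∃ (s : MulAut G) (a b : G) (Cs : Subgroup G), orderOf s = 2 ∧ s ∉ (MulAut.conj : G →* MulAut G).range ∧ (∀ g : G, g ∈ Cs ↔ s g = g) ∧ Nonempty (↥Cs ≃* MulAut (Cfsg.Omega (ZMod 2) (Cfsg.quadFormPlus 4 (ZMod 2)))) ∧ a ∈ D ∧ b ∈ D ∧ a ≠ b ∧ Commute a b ∧ s a = a ∧ s b = b ∧ (∀ t : MulAut G, orderOf t = 2 → t ∉ (MulAut.conj : G →* MulAut G).range → (IsConj t s ∨ IsConj t (s * MulAut.conj a) ∨ IsConj t (s * MulAut.conj (a * b)))) ∧ ¬ IsConj s (s * MulAut.conj a) ∧ ¬ IsConj s (s * MulAut.conj (a * b)) ∧ ¬ IsConj (s * MulAut.conj a) (s * MulAut.conj (a * b)) ∧ (∀ g : G, (s * MulAut.conj a) g = g ↔ g ∈ Cs ⊓ Subgroup.centralizer ({a} : Set G)) ∧ Nonempty (↥(Cs ⊓ Subgroup.centralizer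 ({a} : Set G)) ≃* Multiplicative (ZMod 2) × Cfsg.PSp 3 (ZMod 2)) ∧ ∃ Csab O : Subgroup G, (∀ g : G, g ∈ Csab ↔ (s * MulAut.conj (a * b)) g = g) ∧ O = (Cfsg.pCore 2 ↥Csab).map Csab.subtype ∧ Cfsg.IsElementaryAbelian 2 O ∧ Nat.card O = 64 ∧ ∃ _ : (O.subgroupOf Csab).Normal, Nonempty (↥Csab ⧸ O.subgroupOf Csab ≃* Cfsg.isometryGroup (ZMod 2) (Cfsg.quadFormMinus 2 (ZMod 2) 1 1)) := by
  set s : MulAut G := (κ e).symm s0 with hs
  set a : G := e.symm ta with ha
  set b : G := e.symm tb' with hb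
  have hea : e a = ta := e.apply_symm_apply _
  have heb : e b = tb' := e.apply_symm_apply _
  have hκs : κ e s = s0 := (κ e).apply_symm_apply _
  have hκA : κ e (s * MulAut.conj a) = τA := by
    rw [map_mul, hκs, κ_conj, hea]
    rfl
  have hκB : κ e (s * MulAut.conj (a * b)) = τB := by
    rw [map_mul, hκs, κ_conj, map_mul, hea, heb]
    rfl
  have hsA : (κ e).symm τA = s * MulAut.conj a := by
    rw [← hκA]
    exact (κ e).symm_apply_apply _
  have hsB : (κ e).symm τB = s * MulAut.conj (a * b) := by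
    rw [← hκB]
    exact (κ e).symm_apply_apply _
  have hcs : ∀ g : G, g ∈ O8.I.map e.symm.toMonoidHom ↔ s g = g := by
    intro g
    rw [mem_map_sym, fix_iff e, hκs, fix_S']
  have hcA : ∀ g : G, (s * MulAut.conj a) g = g ↔ e g ∈ RM MA := by
    intro g
    rw [fix_iff e, hκA, fix_A]
  have hcB : ∀ g : G, (s * MulAut.conj (a * b)) g = g ↔ e g ∈ RM MB := by
    intro g
    rw [fix_iff e, hκB, fix_B]
  have hcent : ∀ g : G, g ∈ Subgroup.centralizer ({a} : Set G) ↔ e g ∈ Subgroup.centralizer ({ta} : Set G0) := by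
    intro g
    rw [Subgroup.mem_centralizer_singleton_iff, Subgroup.mem_centralizer_singleton_iff, ← hea, ← map_mul, ← map_mul]
    exact e.injective.eq_iff.symm
  have hinf : ∀ g : G, g ∈ O8.I.map e.symm.toMonoidHom ⊓ Subgroup.centralizer ({a} : Set G) ↔ e g ∈ RM MA := by
    intro g
    rw [Subgroup.mem_inf, mem_map_sym, hcent, ← RA_eq, Subgroup.mem_inf]
  -- the group of the third automorphism
  let f : ↥RB ≃* ↥(RB.map e.symm.toMonoidHom) := e.symm.subgroupMap RB
  have hfv : ∀ y : ↥RB, (f y).1 = e.symm y.1 := fun _ => rfl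
  have hfv' : ∀ x : ↥(RB.map e.symm.toMonoidHom), (f.symm x).1 = e x.1 := by
    intro x
    have h1 : e.symm (f.symm x).1 = x.1 := by
      rw [← hfv, f.apply_symm_apply]
    rw [← h1, e.apply_symm_apply]
  have hO : O0.map e.symm.toMonoidHom = (Cfsg.pCore 2 ↥(RB.map e.symm.toMonoidHom)).map (RB.map e.symm.toMonoidHom).subtype := by
    rw [← pCore_map_eq f, Subgroup.map_map, ← map_pCore_RB, Subgroup.map_map]
    congr 1
  have hN : ((O0.map e.symm.toMonoidHom).subgroupOf (RB.map e.symm.toMonoidHom)).Normal := by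
    refine ⟨fun n hn g => ?_⟩
    rw [Subgroup.mem_subgroupOf, mem_map_sym] at hn ⊢
    have h1 := (RB_norm ((mem_map_sym e).1 g.2)).1 _ hn
    show e (g.1 * n.1 * g.1⁻¹) ∈ O0
    rw [map_mul, map_mul, map_inv]
    exact h1
  refine ⟨s, a, b, O8.I.map e.symm.toMonoidHom, ?_, ?_, hcs, ?_, mem_of_image he (tn_mem_D0 tn_lt2), mem_of_image he (tn_mem_D0 tn_lt3), ?_, ?_, ?_, ?_, ?_, ?_, ?_, ?_, ?_, ?_, RB.map e.symm.toMonoidHom, O0.map e.symm.toMonoidHom, ?_, hO, ?_, ?_, hN, ?_⟩
  · rw [MulEquiv.orderOf_eq]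
    exact orderOf_s0
  · rintro ⟨g, hg⟩
    apply s0_outer (e g)
    rw [← hκs, ← hg, κ_conj]
  · obtain ⟨f'⟩ := O8.main_I
    exact ⟨((e.symm.subgroupMap O8.I).symm).trans f'⟩
  · intro h
    exact tn2_ne (e.symm.injective h)
  · show a * b = b * a
    rw [ha, hb, ← map_mul, ← map_mul, comm_two_three.eq]
  · rw [← e.injective.eq_iff, ← κ_apply e, hκs, hea, s0_ta]
  · rw [← e.injective.eq_iff, ← κ_apply e, hκs, heb, s0_tb]
  · intro t ht hout
    have h1 : κ e t * κ e t = 1 := by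
      rw [← map_mul, ← pow_two, ← ht, pow_orderOf_eq_one, map_one]
    have h2 := classify h1 (not_inner_iff e t hout)
    have h3 : t = (κ e).symm (κ e t) := ((κ e).symm_apply_apply t).symm
    rcases h2 with h2 | h2 | h2
    · left
      have h4 := conj_map e h2
      rwa [← h3] at h4
    · right; left
      have h4 := conj_map e h2
      rwa [← h3, hsA] at h4
    · right; right
      have h4 := conj_map e h2
      rwa [← h3, hsB] at h4
  · intro h
    have h1 := conj_map' e h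
    rw [hκs, hκA] at h1
    exact not_conj_SA h1
  · intro h
    have h1 := conj_map' e h
    rw [hκs, hκB] at h1
    exact not_conj_SB h1
  · intro h
    have h1 := conj_map' e h
    rw [hκA, hκB] at h1
    exact not_conj_AB h1
  · intro g
    rw [hcA, hinf]
  · have h1 : O8.I.map e.symm.toMonoidHom ⊓ Subgroup.centralizer ({a} : Set G) = (RM MA).map e.symm.toMonoidHom := by
      ext g
      rw [hinf, mem_map_sym]
    obtain ⟨f'⟩ := RA_iso
    exact ⟨(MulEquiv.subgroupCongr h1).trans (((e.symm.subgroupMap (RM MA)).symm).trans f')⟩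
  · intro g
    rw [hcB, mem_map_sym]
  · refine ⟨⟨⟨?_⟩⟩, ?_⟩
    · rintro ⟨x, hx⟩ ⟨y, hy⟩
      apply Subtype.ext
      apply e.injective
      show e (x * y) = e (y * x)
      rw [map_mul, map_mul]
      exact O0_comm ((mem_map_sym e).1 hx) ((mem_map_sym e).1 hy)
    · intro x hx
      apply e.injective
      rw [map_pow, map_one]
      exact O0_sq ((mem_map_sym e).1 hx)
  · rw [card_map_equiv, card_O0]
  · haveI := hN
    have hmap : ((O0.map e.symm.toMonoidHom).subgroupOf (RB.map e.symm.toMonoidHom)).map f.symm.toMonoidHom = O1 := by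
      ext y
      constructor
      · rintro ⟨x, hx, rfl⟩
        rw [mem_O1]
        have hx' : x ∈ (O0.map e.symm.toMonoidHom).subgroupOf (RB.map e.symm.toMonoidHom) := hx
        rw [Subgroup.mem_subgroupOf, mem_map_sym] at hx'
        have h1 : (f.symm.toMonoidHom x).1 = e x.1 := hfv' x
        rw [h1]
        exact hx'
      · intro hy
        refine ⟨f y, ?_, f.symm_apply_apply y⟩
        show f y ∈ (O0.map e.symm.toMonoidHom).subgroupOf (RB.map e.symm.toMonoidHom)
        rw [Subgroup.mem_subgroupOf, mem_map_sym, hfv, e.apply_symm_apply]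
        exact mem_O1.1 hy
    obtain ⟨g⟩ := exists_Qt_iso
    exact ⟨(QuotientGroup.congr _ O1 f.symm hmap).trans g⟩

end Cfsg.Agent.Lib.Fischer.M22.Rows.Out
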